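import Cfsg.Agent.Lib.Helper7.PoinTabJ
import Cfsg.Agent.Lib.Helper7.PolyList
import Cfsg.Agent.Lib.Helper7.TwD4

set_option autoImplicit false

namespace Cfsg.Agent.Lib.Helper7

open Cfsg.Lie

noncomputable def pjD4_0 : StepC where
  I := 15
  J := 13
  m := 6
  TP := 0x908070612040302010d0c0b0a161514130511100f0e17010e0b0a061305030200100f08071715141204110d0c091609160c0d04111207080014150203170f100506130a0b010e0e170f100511130a0b0114150203160c0d04061207080009161715141213110d0c09100f08070e0b0a0604050302000117161514131211100f0e0d0c0b0a09080706050403020100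
  PG := 0x10400030102000101000000
  ACT := 0x60604060303050304040204010103010202000206060106
  θ := 23
  IX := 0x100000000000000020000000003000000000000000405
  Psi := 0x43c20

set_option maxHeartbeats 0 in
theorem pjD4_0_G : pjD4_0.chkGJ fastD4 fastWD4 (orbL rsD4 mD4) = true := by decide +kernel

set_option maxHeartbeats 0 in
theorem pjD4_0_A_0 : allFrom 0 6 (StepC.chkAJ fastD4 fastWD4 (orbL rsD4 mD4) pjD4_0) = true := by decide +kernel
theorem pjD4_0_A : ∀ r < 6, (StepC.chkAJ fastD4 fastWD4 (orbL rsD4 mD4) pjD4_0) r = true := by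
  intro r hr
  exact allFrom_sound pjD4_0_A_0 r (by omega) (by omega)

set_option maxHeartbeats 0 in
theorem pjD4_0_H : histP (Sys2.cntF fastD4 pjD4_0) 6 = [1, 1, 0, 0, 1, 1, 0, 0, 1, 1] := by decide +kernel

noncomputable def pjD4_1 : StepC where
  I := 13
  J := 0
  m := 2
  TP := 0x170e0f101105131415160a0b0c0d0102030412060708090017161514131211100f0e0d0c0b0a09080706050403020100
  PG := 0x0
  ACT := 0x1010001
  θ := 12
  IX := 0x10000000000000000000000
  Psi := 0x0

set_option maxHeartbeats 0 in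
theorem pjD4_1_G : pjD4_1.chkGJ fastD4 fastWD4 (orbL rsD4 mD4) = true := by decide +kernel

set_option maxHeartbeats 0 in
theorem pjD4_1_A_0 : allFrom 0 2 (StepC.chkAJ fastD4 fastWD4 (orbL rsD4 mD4) pjD4_1) = true := by decide +kernel
theorem pjD4_1_A : ∀ r < 2, (StepC.chkAJ fastD4 fastWD4 (orbL rsD4 mD4) pjD4_1) r = true := by
  intro r hr
  exact allFrom_sound pjD4_1_A_0 r (by omega) (by omega)

set_option maxHeartbeats 0 in
theorem pjD4_1_H : histP (Sys2.cntF fastD4 pjD4_1) 2 = [1, 0, 0, 1] := by decide +kernel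

set_option maxHeartbeats 0 in
theorem pjIdD4 : prodP [[1, 1, 0, 0, 1, 1, 0, 0, 1, 1], [1, 0, 0, 1]] = prodP [[1, 1], [1, 0, 0, 1], [1, 0, 0, 0, 1, 0, 0, 0, 1]] := by decide +kernel

theorem poinJD4 (hO : ∀ i < chevD4.rank, OKw chevD4 ((orbL rsD4 mD4) i))
    (hsq : ∀ i < chevD4.rank, sys2D4.wperm ((orbL rsD4 mD4) i) * sys2D4.wperm ((orbL rsD4 mD4) i) = 1) (q : ℕ) :
    poin (Sys2.posF chevD4) (sys2D4.WJ (orbL rsD4 mD4) 15) q =
    (([[1, 1], [1, 0, 0, 1], [1, 0, 0, 0, 1, 0, 0, 0, 1]] : List (List ℕ)).map fun L => evalP L q).prod := by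
  have h0 : poin (Sys2.posF chevD4) (sys2D4.WJ (orbL rsD4 mD4) 15) q =
      evalP [1, 1, 0, 0, 1, 1, 0, 0, 1, 1] q * poin (Sys2.posF chevD4) (sys2D4.WJ (orbL rsD4 mD4) 13) q := by
    rw [← pjD4_0_H, evalP_histP]
    exact sys2D4.stepJ (orbL rsD4 mD4) hO hsq pjD4_0 pjD4_0_G pjD4_0_A q
  have h1 : poin (Sys2.posF chevD4) (sys2D4.WJ (orbL rsD4 mD4) 13) q =
      evalP [1, 0, 0, 1] q * poin (Sys2.posF chevD4) (sys2D4.WJ (orbL rsD4 mD4) 0) q := by
    rw [← pjD4_1_H, evalP_histP]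
    exact sys2D4.stepJ (orbL rsD4 mD4) hO hsq pjD4_1 pjD4_1_G pjD4_1_A q
  have hl : poin (Sys2.posF chevD4) (sys2D4.WJ (orbL rsD4 mD4) 0) q = 1 := by rw [Sys2.WJ_zero, poin_bot]
  rw [← evalP_prodP, ← pjIdD4, evalP_prodP, h0, h1, hl]
  simp only [List.map_cons, List.map_nil, List.prod_cons, List.prod_nil, mul_one, mul_assoc]

end Cfsg.Agent.Lib.Helper7
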