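import Cfsg.Agent.Lib.Helper7.TwD4H
import Cfsg.Agent.Lib.Helper7.PjD4

set_option autoImplicit false
set_option linter.unusedSimpArgs false
set_option linter.unusedVariables false
set_option linter.unusedSectionVars false

namespace Cfsg.Agent.Lib.Helper7

open Cfsg.Lie Cfsg.Lie.ChevalleyDatum Matrix Equiv

section
variable {K : Type*} [Field K] [Fintype K] {q : ℕ} (hK : Fintype.card K = q ^ 3) (f : K ≃+* K) (hf : ∀ t, f t = t ^ q)

theorem twD4_W1 : (twD4 hK f hf).W1 = sys2D4.WJ (orbL rsD4 mD4) 15 := by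
  unfold Tw.W1 Sys2.WJ Sys2.genJ
  congr 1
  ext g
  constructor
  · rintro ⟨i, hi, rfl⟩
    refine ⟨i, hi, ?_, rfl⟩
    have hi' : i < 4 := hi
    interval_cases i <;> rfl
  · rintro ⟨i, hi, _, rfl⟩
    exact ⟨i, hi, rfl⟩

theorem twD4_hq (hq : 1 < q) (i : ℕ) (hi : i < chevD4.rank) :
    Nat.card {t : K // (twD4 hK f hf).φ^[(twD4 hK f hf).m i] t = t} = q ^ (twD4 hK f hf).m i := by
  have hi' : i < 4 := hi
  have h3 : Nat.card {t : K // (twD4 hK f hf).φ^[3] t = t} = q ^ 3 := by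
    rw [← hK, ← Nat.card_eq_fintype_card]
    apply Nat.card_congr
    refine Equiv.subtypeUnivEquiv ?_
    intro t
    rw [twD4_φ, ← hK, FiniteField.pow_card]
  interval_cases i
  · exact h3
  · show Nat.card {t : K // (twD4 hK f hf).φ^[1] t = t} = q ^ 1
    simp only [twD4_φ, pow_one]
    exact card_pow_eq_self hq (by norm_num) hK
  · exact h3
  · exact h3

include hK hf in
theorem twD4_card_group (hq : 1 < q) :
    Nat.card ↥(twistedD4 K q) = q ^ 12 * (q ^ 2 - 1) * (q ^ 6 - 1) * (q ^ 8 + q ^ 4 + 1) := by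
  have hd := twD4_card_diag hK f hf hq
  rw [← twD4_Gam hK f hf, (twD4_good hK f hf).diag_eq] at hd
  rw [← twD4_Gam hK f hf, (twD4_good hK f hf).Gam_eq,
    (twD4 hK f hf).card_fix (twD4_comm hK f hf) q (twD4_hq hK f hf hq), hd, twD4_W1,
    poinJD4 (fun i hi => (twD4 hK f hf).orb_ok hi) (fun i hi => (twD4 hK f hf).wperm_orb_sq hi)]
  simp only [List.map_cons, List.map_nil, List.prod_cons, List.prod_nil, evalP]
  obtain ⟨r, rfl⟩ : ∃ r, q = r + 1 := ⟨q - 1, by omega⟩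
  have e2 : (r + 1) ^ 2 = r * (r + 2) + 1 := by ring
  have e6 : (r + 1) ^ 6 = r * (((r + 1) ^ 2 + (r + 1) + 1) * ((r + 1) ^ 3 + 1)) + 1 := by ring
  rw [e6, Nat.add_sub_cancel, Nat.add_sub_cancel]
  conv_rhs => rw [e2, Nat.add_sub_cancel]
  show (r + 1) ^ 12 * _ * _ = _
  ring

end

end Cfsg.Agent.Lib.Helper7
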