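import Cfsg.Agent.Lib.Helper7.TwE6H
import Cfsg.Agent.Lib.Helper7.PjE6

set_option autoImplicit false
set_option linter.unusedSimpArgs false
set_option linter.unusedVariables false
set_option linter.unusedSectionVars false

namespace Cfsg.Agent.Lib.Helper7

open Cfsg.Lie Cfsg.Lie.ChevalleyDatum Matrix Equiv

section
variable {K : Type*} [Field K] [Fintype K] {q : ℕ} (hK : Fintype.card K = q ^ 2) (f : K ≃+* K) (hf : ∀ t, f t = t ^ q)

theorem twE6_W1 : (twE6 hK f hf).W1 = sys2E6.WJ (orbL rsE6 mE6) 63 := by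
  unfold Tw.W1 Sys2.WJ Sys2.genJ
  congr 1
  ext g
  constructor
  · rintro ⟨i, hi, rfl⟩
    refine ⟨i, hi, ?_, rfl⟩
    have hi' : i < 6 := hi
    interval_cases i <;> rfl
  · rintro ⟨i, hi, _, rfl⟩
    exact ⟨i, hi, rfl⟩

theorem twE6_hq (hq : 1 < q) (i : ℕ) (hi : i < chevE6.rank) :
    Nat.card {t : K // (twE6 hK f hf).φ^[(twE6 hK f hf).m i] t = t} = q ^ (twE6 hK f hf).m i := by
  have hi' : i < 6 := hi
  have h2 : Nat.card {t : K // (twE6 hK f hf).φ^[2] t = t} = q ^ 2 := by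
    rw [← hK, ← Nat.card_eq_fintype_card]
    apply Nat.card_congr
    refine Equiv.subtypeUnivEquiv ?_
    intro t
    rw [twE6_φ, ← hK, FiniteField.pow_card]
  have h1 : Nat.card {t : K // (twE6 hK f hf).φ^[1] t = t} = q ^ 1 := by
    simp only [twE6_φ, pow_one]
    exact card_pow_eq_self hq (by norm_num) hK
  interval_cases i
  · exact h2
  · exact h1
  · exact h2
  · exact h1
  · exact h2
  · exact h2

include hK hf in
theorem twE6_card_group (hq : 1 < q) :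
    Nat.gcd 3 (q + 1) * Nat.card ↥(twistedE6 K q) =
      q ^ 36 * (q ^ 2 - 1) * (q ^ 5 + 1) * (q ^ 6 - 1) * (q ^ 8 - 1) * (q ^ 9 + 1) * (q ^ 12 - 1) := by
  have hd := twE6_card_diag_fix hK f hf hq
  rw [← twE6_Gam hK f hf, (twE6_good hK f hf).Gam_eq,
    (twE6 hK f hf).card_fix (twE6_comm hK f hf) q (twE6_hq hK f hf hq), twE6_W1,
    poinJE6 (fun i hi => (twE6 hK f hf).orb_ok hi) (fun i hi => (twE6 hK f hf).wperm_orb_sq hi)]
  simp only [List.map_cons, List.map_nil, List.prod_cons, List.prod_nil, evalP]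
  have e : ∀ a b c : ℕ, Nat.gcd 3 (q + 1) * (a * Nat.card ↥(chevE6.diagonalSubgroup K ⊓ (twE6 hK f hf).Fix) * c) =
      a * (Nat.gcd 3 (q + 1) * Nat.card ↥(chevE6.diagonalSubgroup K ⊓ (twE6 hK f hf).Fix)) * c := by
    intro a b c; ring
  rw [e _ 0, hd]
  obtain ⟨r, rfl⟩ : ∃ r, q = r + 1 := ⟨q - 1, by omega⟩
  have e2 : (r + 1) ^ 2 - 1 = r * (r + 2) := by
    have : (r + 1) ^ 2 = r * (r + 2) + 1 := by ring
    rw [this, Nat.add_sub_cancel]
  have e6 : (r + 1) ^ 6 - 1 = r * (1 + (r+1) + (r+1)^2 + (r+1)^3 + (r+1)^4 + (r+1)^5) := by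
    have : (r + 1) ^ 6 = r * (1 + (r+1) + (r+1)^2 + (r+1)^3 + (r+1)^4 + (r+1)^5) + 1 := by ring
    rw [this, Nat.add_sub_cancel]
  have e8 : (r + 1) ^ 8 - 1 = r * (r + 2) * (1 + (r+1)^2 + (r+1)^4 + (r+1)^6) := by
    have : (r + 1) ^ 8 = r * (r + 2) * (1 + (r+1)^2 + (r+1)^4 + (r+1)^6) + 1 := by ring
    rw [this, Nat.add_sub_cancel]
  have e12 : (r + 1) ^ 12 - 1 = r * (1 + (r+1) + (r+1)^2 + (r+1)^3 + (r+1)^4 + (r+1)^5 + (r+1)^6 + (r+1)^7 +
      (r+1)^8 + (r+1)^9 + (r+1)^10 + (r+1)^11) := by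
    have : (r + 1) ^ 12 = r * (1 + (r+1) + (r+1)^2 + (r+1)^3 + (r+1)^4 + (r+1)^5 + (r+1)^6 + (r+1)^7 +
      (r+1)^8 + (r+1)^9 + (r+1)^10 + (r+1)^11) + 1 := by ring
    rw [this, Nat.add_sub_cancel]
  rw [e2, e6, e8, e12, Nat.add_sub_cancel]
  show (r + 1) ^ 36 * _ * _ = _
  ring

end

end Cfsg.Agent.Lib.Helper7
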