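import Cfsg.Agent.Lib.Helper7.Cox0
import Cfsg.Agent.Lib.Helper7.TwD4O
import Cfsg.Agent.Lib.Helper7.TwE6O

set_option autoImplicit false

namespace Cfsg.Agent.Lib.Helper7

open Cfsg.Lie Cfsg.Lie.ChevalleyDatum

def cD4 : Fin 2 → ℕ := ![0, 1]
def cE6 : Fin 4 → ℕ := ![1, 3, 2, 0]

theorem relJD4 : ∀ i j : Fin 2, relChk fastD4 fastWD4 (orbL rsD4 mD4 (cD4 i) ++ orbL rsD4 mD4 (cD4 j))
    (CoxeterMatrix.G₂ i j) = true := by
  decide +kernel
theorem relJE6 : ∀ i j : Fin 4, relChk fastE6 fastWE6 (orbL rsE6 mE6 (cE6 i) ++ orbL rsE6 mE6 (cE6 j))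
    (CoxeterMatrix.F₄ i j) = true := by
  decide +kernel

theorem covD4 : ∀ i < 4, ∃ (k : Fin 2) (e : Fin 3), i = rsD4^[e.val] (cD4 k) := by decide
theorem covE6 : ∀ i < 6, ∃ (k : Fin 4) (e : Fin 2), i = rsE6^[e.val] (cE6 k) := by decide

theorem twD4_weyl {K : Type*} [Field K] [Fintype K] {q : ℕ} (hK : Fintype.card K = q ^ 3) (f : K ≃+* K)
    (hf : ∀ t, f t = t ^ q) (hc : Nat.card CoxeterMatrix.G₂.Group = 12) :
    ∃ φ : ↥(chevD4.monomialSubgroup K ⊓ twistedD4 K q) →* (CoxeterMatrix.G₂).Group, Function.Surjective φ ∧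
      φ.ker = (chevD4.diagonalSubgroup K ⊓ twistedD4 K q).subgroupOf (chevD4.monomialSubgroup K ⊓ twistedD4 K q) := by
  rw [← twD4_Gam hK f hf]
  apply (twD4_good hK f hf).weyl_hom CoxeterMatrix.G₂ cD4 (by decide)
  · intro i hi
    obtain ⟨k, e, h⟩ := covD4 i hi
    exact ⟨k, e.val, h⟩
  · exact relJD4
  · rw [hc]; norm_num
  · rw [hc, twD4_W1,
      poinJD4 (fun i hi => (twD4 hK f hf).orb_ok hi) (fun i hi => (twD4 hK f hf).wperm_orb_sq hi)]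
    decide

theorem twE6_weyl {K : Type*} [Field K] [Fintype K] {q : ℕ} (hK : Fintype.card K = q ^ 2) (f : K ≃+* K)
    (hf : ∀ t, f t = t ^ q) (hc : Nat.card CoxeterMatrix.F₄.Group = 1152) :
    ∃ φ : ↥(chevE6.monomialSubgroup K ⊓ twistedE6 K q) →* (CoxeterMatrix.F₄).Group, Function.Surjective φ ∧
      φ.ker = (chevE6.diagonalSubgroup K ⊓ twistedE6 K q).subgroupOf (chevE6.monomialSubgroup K ⊓ twistedE6 K q) := by
  rw [← twE6_Gam hK f hf]
  apply (twE6_good hK f hf).weyl_hom CoxeterMatrix.F₄ cE6 (by decide)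
  · intro i hi
    obtain ⟨k, e, h⟩ := covE6 i hi
    exact ⟨k, e.val, h⟩
  · exact relJE6
  · rw [hc]; norm_num
  · rw [hc, twE6_W1,
      poinJE6 (fun i hi => (twE6 hK f hf).orb_ok hi) (fun i hi => (twE6 hK f hf).wperm_orb_sq hi)]
    decide

end Cfsg.Agent.Lib.Helper7
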