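import Cfsg.Agent.Lib.Helper7.CK1

set_option autoImplicit false
set_option linter.unusedSimpArgs false
set_option linter.unusedVariables false
set_option linter.unusedSectionVars false

namespace Cfsg.Agent.Lib.Helper7

open Cfsg.Lie Cfsg.Lie.ChevalleyDatum Matrix Equiv

namespace Sys2

variable {D : ChevalleyDatum} (S : Sys2 D)
include S

/-- induction along the orbits of the fundamental reflections, from the two base roots -/
theorem root_induction2 (P : ℕ → Prop) (h1 : P (D.simple S.j1)) (h2 : P (D.simple S.j2))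
    (hstep : ∀ i < D.rank, ∀ r < D.nroots, P r → P (D.reflectRoot i r)) : ∀ r < D.nroots, P r := by
  have main : ∀ d r, cDp S.C r = d → r < D.nroots → P r := by
    intro d
    induction d using Nat.strong_induction_on with
    | _ d ih =>
      intro r hd hr
      have := S.cS r (S.hn ▸ hr)
      simp only [stepF, Bool.or_eq_true, nbeq_iff, Bool.and_eq_true, Nat.blt_eq] at this
      rcases this with (h3 | h3) | h3
      · rw [h3, ← S.hbj1, ← S.simple_eq (S.hl ▸ S.hj1)]; exact h1
      · rw [h3, ← S.hbj2, ← S.simple_eq (S.hl ▸ S.hj2)]; exact h2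
      · obtain ⟨⟨⟨⟨hi, hr'⟩, hdp⟩, hinv⟩, hall⟩ := h3
        have hi' : cMv S.C r < D.rank := S.hl ▸ hi
        have hP := ih _ (by rw [← hd]; exact hdp) _ rfl (S.hn ▸ hr')
        have := hstep _ hi' _ (S.hn ▸ hr') hP
        rwa [S.refl_eq hi' (S.hn ▸ hr'), hinv] at this
  intro r hr
  exact main _ r rfl hr

variable {F : Type*} [Field F]

/-- the root subgroup lies in `R` -/
def InR (R : Subgroup (GL D.Idx F)) (r : ℕ) : Prop := ∀ t : F, S.xg r t ∈ R

variable {R : Subgroup (GL D.Idx F)}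

theorem InR.refl (hN : D.monomialSubgroup F ≤ R) {i r : ℕ} (hi : i < D.rank) (hr : r < D.nroots)
    (h : S.InR R r) : S.InR R (D.reflectRoot i r) := by
  intro t
  have h1 := S.ng_conj hi hr (((S.η i r : ℤ) : F) * t)
  have h2 : ((S.η i r : ℤ) : F) * (((S.η i r : ℤ) : F) * t) = t := by
    rcases S.η_cases i r with e | e <;> rw [e] <;> simp
  rw [h2] at h1
  rw [← h1]
  have hn : S.ng (D.simple i) (1 : F) ∈ R := hN (S.ni_mem hi)
  exact mul_mem (mul_mem hn (h _)) (inv_mem hn)

theorem InR.refl_iff (hN : D.monomialSubgroup F ≤ R) {i r : ℕ} (hi : i < D.rank) (hr : r < D.nroots) :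
    S.InR R (D.reflectRoot i r) ↔ S.InR R r := by
  constructor
  · intro h
    have := InR.refl S hN hi (S.refl_lt hi hr) h
    rwa [S.refl_refl hi hr] at this
  · exact InR.refl S hN hi hr

theorem InR.classes (hN : D.monomialSubgroup F ≤ R) : ∀ r < D.nroots,
    (S.InR R r ↔ S.InR R (D.simple S.j1)) ∨ (S.InR R r ↔ S.InR R (D.simple S.j2)) := by
  apply S.root_induction2
  · exact Or.inl Iff.rfl
  · exact Or.inr Iff.rfl
  · intro i hi r hr h
    rw [InR.refl_iff S hN hi hr]
    exact h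

theorem le_of_InR (hN : D.monomialSubgroup F ≤ R) (h1 : S.InR R (D.simple S.j1)) (h2 : S.InR R (D.simple S.j2)) :
    D.group F ≤ R := by
  rw [S.group_eq, Subgroup.closure_le]
  rintro _ ⟨r, t, hr, rfl⟩
  rcases InR.classes S hN r hr with h | h
  · exact h.2 h1 t
  · exact h.2 h2 t

theorem InR.neg (hN : D.monomialSubgroup F ≤ R) {i : ℕ} (hi : i < D.rank) (h : S.InR R (D.simple i)) :
    S.InR R (D.neg (D.simple i)) := by
  rw [← S.refl_simple hi]
  exact InR.refl S hN hi (S.simple_lt hi) h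

theorem InR.comm {r s k : ℕ} {c : ℤ} (hr : r < D.nroots) (hs : s < D.nroots) (hrs : s ≠ r) (hneg : s ≠ D.neg r)
    (hT : D.commTerms r s = [(k, c, 1, 1)]) (hc : (c : F) ≠ 0) (h1 : S.InR R r) (h2 : S.InR R s) : S.InR R k := by
  intro v
  have h := S.comm_g hr hs hrs hneg (-1 : F) ((c : F)⁻¹ * v)
  rw [commWord, hT] at h
  simp only [List.map_cons, List.map_nil, Sys.wg_cons, Sys.wg_nil, mul_one, pow_one, _root_.neg_neg] at h
  rw [mul_inv_cancel_left₀ hc] at h
  have e : S.xg k v = (S.xg s ((c : F)⁻¹ * v))⁻¹ * ((S.xg r (-1 : F))⁻¹ * S.xg s ((c : F)⁻¹ * v) * S.xg r (-1 : F)) := by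
    rw [h]; group
  rw [e]
  exact mul_mem (inv_mem (h2 _)) (mul_mem (mul_mem (inv_mem (h1 _)) (h2 _)) (h1 _))

theorem InR.of_root_le {r : ℕ} (h : D.rootSubgroup F r ≤ R) : S.InR R r :=
  fun t => h (S.xg_mem_rootSubgroup r t)

end Sys2

end Cfsg.Agent.Lib.Helper7
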