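import Cfsg.Agent.Lib.Helper7.GenN
import Cfsg.Agent.Lib.Helper7.Sys5All
import Cfsg.Prelude.Def_ChevAutomorphisms

set_option autoImplicit false
set_option linter.unusedSimpArgs false
set_option linter.unusedVariables false
set_option linter.unusedSectionVars false

namespace Cfsg.Agent.Lib.Helper7

open Cfsg.Lie Cfsg.Lie.ChevalleyDatum Matrix Equiv

theorem natCast_ne_zero_of_ringChar {K : Type*} [Field K] {p : ℕ} (hp : p.Prime) (h : ringChar K ≠ p) :
    ((p : ℤ) : K) ≠ 0 := by
  intro h0
  have h1 : ((p : ℕ) : K) = 0 := by exact_mod_cast h0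
  have h2 := (ringChar.spec K p).1 h1
  rcases (Nat.dvd_prime hp).1 h2 with h3 | h3
  · exact CharP.ringChar_ne_one h3
  · exact h h3

variable {F : Type*} [Field F]

theorem Sys2.le_of_single {D : ChevalleyDatum} (S : Sys2 D) (hj : S.j1 = S.j2) {R : Subgroup (GL D.Idx F)}
    (hN : D.monomialSubgroup F ≤ R) {r : ℕ} (hr : r < D.nroots) (h : S.InR R r) : D.group F ≤ R := by
  have h1 : S.InR R (D.simple S.j1) := by
    rcases Sys2.InR.classes S hN r hr with h2 | h2
    · exact h2.1 h
    · rw [hj]; exact h2.1 h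
  exact S.le_of_InR hN h1 (hj ▸ h1)

theorem shortG2 {i : ℕ} (hi : i < chevG2.rank) (h : chevG2.isLong (chevG2.simple i) = false) : i = 0 := by
  have hi' : i < 2 := hi
  interval_cases i
  · rfl
  · exact absurd h (by decide +kernel)

theorem longG2 {i : ℕ} (hi : i < chevG2.rank) (h : chevG2.isLong (chevG2.simple i) = true) : i = 1 := by
  have hi' : i < 2 := hi
  interval_cases i
  · exact absurd h (by decide +kernel)
  · rfl

theorem shortB2 {i : ℕ} (hi : i < chevB2.rank) (h : chevB2.isLong (chevB2.simple i) = false) : i = 0 := by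
  have hi' : i < 2 := hi
  interval_cases i
  · rfl
  · exact absurd h (by decide +kernel)

theorem longB2 {i : ℕ} (hi : i < chevB2.rank) (h : chevB2.isLong (chevB2.simple i) = true) : i = 1 := by
  have hi' : i < 2 := hi
  interval_cases i
  · exact absurd h (by decide +kernel)
  · rfl

theorem shortF4 {i : ℕ} (hi : i < chevF4.rank) (h : chevF4.isLong (chevF4.simple i) = false) : i = 0 ∨ i = 1 := by
  have hi' : i < 4 := hi
  interval_cases i
  · exact Or.inl rfl
  · exact Or.inr rfl
  · exact absurd h (by decide +kernel)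
  · exact absurd h (by decide +kernel)

theorem longF4 {i : ℕ} (hi : i < chevF4.rank) (h : chevF4.isLong (chevF4.simple i) = true) : i = 2 ∨ i = 3 := by
  have hi' : i < 4 := hi
  interval_cases i
  · exact absurd h (by decide +kernel)
  · exact absurd h (by decide +kernel)
  · exact Or.inl rfl
  · exact Or.inr rfl

theorem inR_F4_01 {R : Subgroup (GL chevF4.Idx F)} (hN : chevF4.monomialSubgroup F ≤ R) :
    sys5F4.InR R (chevF4.simple 1) ↔ sys5F4.InR R (chevF4.simple 0) := by
  have e : chevF4.simple 1 = chevF4.reflectRoot 0 (chevF4.reflectRoot 1 (chevF4.simple 0)) := by decide +kernel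
  rw [e, Sys2.InR.refl_iff _ hN (by decide) (by decide +kernel), Sys2.InR.refl_iff _ hN (by decide) (by decide +kernel)]

theorem inR_F4_23 {R : Subgroup (GL chevF4.Idx F)} (hN : chevF4.monomialSubgroup F ≤ R) :
    sys5F4.InR R (chevF4.simple 3) ↔ sys5F4.InR R (chevF4.simple 2) := by
  have e : chevF4.simple 3 = chevF4.reflectRoot 2 (chevF4.reflectRoot 3 (chevF4.simple 2)) := by decide +kernel
  rw [e, Sys2.InR.refl_iff _ hN (by decide) (by decide +kernel), Sys2.InR.refl_iff _ hN (by decide) (by decide +kernel)]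

theorem genG2 {R : Subgroup (GL chevG2.Idx F)} (hN : chevG2.monomialSubgroup F ≤ R) (h3 : ringChar F ≠ 3)
    (h : sys5G2.InR R (chevG2.simple 0)) : chevG2.group F ≤ R := by
  refine sys5G2.le_of_InR hN h ?_
  have h1 : sys5G2.InR R 8 := Sys2.InR.refl _ hN (i := 1) (by decide) (by decide +kernel) h
  have h2 : sys5G2.InR R 4 := Sys2.InR.neg _ hN (i := 0) (by decide) h
  exact Sys2.InR.comm _ (r := 8) (s := 4) (k := 6) (c := 3) (by decide) (by decide) (by decide) (by decide +kernel)
    (by decide +kernel) (natCast_ne_zero_of_ringChar Nat.prime_three h3) h1 h2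

theorem genB2 {R : Subgroup (GL chevB2.Idx F)} (hN : chevB2.monomialSubgroup F ≤ R) (h3 : ringChar F ≠ 2)
    (h : sys5B2.InR R (chevB2.simple 0)) : chevB2.group F ≤ R := by
  refine sys5B2.le_of_InR hN h ?_
  have h1 : sys5B2.InR R 6 := Sys2.InR.refl _ hN (i := 1) (by decide) (by decide +kernel) h
  have h2 : sys5B2.InR R 2 := Sys2.InR.neg _ hN (i := 0) (by decide) h
  exact Sys2.InR.comm _ (r := 6) (s := 2) (k := 4) (c := 2) (by decide) (by decide) (by decide) (by decide +kernel)
    (by decide +kernel) (natCast_ne_zero_of_ringChar Nat.prime_two h3) h1 h2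

theorem genF4 {R : Subgroup (GL chevF4.Idx F)} (hN : chevF4.monomialSubgroup F ≤ R) (h3 : ringChar F ≠ 2)
    (h : sys5F4.InR R (chevF4.simple 0)) : chevF4.group F ≤ R := by
  refine sys5F4.le_of_InR hN h ?_
  have h0 := (inR_F4_01 hN).2 h
  have h1 : sys5F4.InR R 28 := Sys2.InR.refl _ hN (i := 2) (by decide) (by decide +kernel) h0
  have h2 : sys5F4.InR R 20 := Sys2.InR.neg _ hN (i := 1) (by decide) h0
  exact Sys2.InR.comm _ (r := 28) (s := 20) (k := 25) (c := 2) (by decide) (by decide) (by decide) (by decide +kernel)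
    (by decide +kernel) (natCast_ne_zero_of_ringChar Nat.prime_two h3) h1 h2

end Cfsg.Agent.Lib.Helper7
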