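import Cfsg.Agent.Lib.Helper7.CK1
import Cfsg.Agent.Lib.Helper7.Sys5All
import Cfsg.Prelude.Def_ChevAutomorphisms

set_option autoImplicit false
set_option linter.unusedSimpArgs false
set_option linter.unusedVariables false
set_option linter.unusedSectionVars false

namespace Cfsg.Agent.Lib.Helper7

open Cfsg.Lie Cfsg.Lie.ChevalleyDatum Matrix Equiv

/-- compatibility of the permutation of the roots with the reflections -/
def PermOK (D : ChevalleyDatum) (π : Equiv.Perm (Fin D.rank)) : Prop :=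
  (∀ i : Fin D.rank, D.permRoot π (D.simple i) = D.simple (π i)) ∧
  (∀ r : Fin D.nroots, D.permRoot π r < D.nroots) ∧
  (∀ (i : Fin D.rank) (r : Fin D.nroots), D.permRoot π (D.reflectRoot i r) = D.reflectRoot (π i) (D.permRoot π r))

set_option maxRecDepth 100000 in
theorem permOK_D4 : ∀ π : Equiv.Perm (Fin chevD4.rank), chevD4.IsDiagramSymmetry π → PermOK chevD4 π := by
  unfold ChevalleyDatum.IsDiagramSymmetry PermOK
  decide +kernel

set_option maxRecDepth 100000 in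
theorem permOK_E6 : ∀ π : Equiv.Perm (Fin chevE6.rank), chevE6.IsDiagramSymmetry π → PermOK chevE6 π := by
  unfold ChevalleyDatum.IsDiagramSymmetry PermOK
  decide +kernel

theorem Sys5.graph_signs {D : ChevalleyDatum} (S : Sys5 D) {F : Type*} [Field F] (π : Equiv.Perm (Fin D.rank))
    (hπ : PermOK D π) (φ : ↥(D.group F) ≃* ↥(D.group F))
    (hφ : ∀ (g : ↥(D.group F)) (i : Fin D.rank) (t : F),
      (((g : GL D.Idx F) : Matrix D.Idx D.Idx F) = D.x F (D.simple i) t →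
        ((φ g : GL D.Idx F) : Matrix D.Idx D.Idx F) = D.x F (D.simple (π i)) t) ∧
      (((g : GL D.Idx F) : Matrix D.Idx D.Idx F) = D.x F (D.neg (D.simple i)) t →
        ((φ g : GL D.Idx F) : Matrix D.Idx D.Idx F) = D.x F (D.neg (D.simple (π i))) t)) :
    ∀ r < D.nroots, ∃ ε : F, (ε = 1 ∨ ε = -1) ∧ ∀ t : F,
      φ ⟨S.xg r t, S.xg_mem_group t⟩ = ⟨S.xg (D.permRoot π r) (ε * t), S.xg_mem_group _⟩ := by
  obtain ⟨h1, h2, h3⟩ := hπ
  have hp : ∀ (i : Fin D.rank) (t : F), φ ⟨S.xg (D.simple i) t, S.xg_mem_group t⟩ =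
      ⟨S.xg (D.simple (π i)) t, S.xg_mem_group _⟩ := fun i t =>
    Subtype.ext (Units.ext ((hφ _ i t).1 rfl))
  have hn : ∀ (i : Fin D.rank) (t : F), φ ⟨S.xg (D.neg (D.simple i)) t, S.xg_mem_group t⟩ =
      ⟨S.xg (D.neg (D.simple (π i))) t, S.xg_mem_group _⟩ := fun i t =>
    Subtype.ext (Units.ext ((hφ _ i t).2 rfl))
  have hni : ∀ i : Fin D.rank, ∀ hm : S.ng (D.simple i) (1 : F) ∈ D.group F, ∀ hm' : S.ng (D.simple (π i)) (1 : F) ∈ D.group F,
      φ ⟨S.ng (D.simple i) (1 : F), hm⟩ = ⟨S.ng (D.simple (π i)) (1 : F), hm'⟩ := by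
    intro i hm hm'
    have e : (⟨S.ng (D.simple i) (1 : F), hm⟩ : ↥(D.group F)) =
        ⟨S.xg (D.simple i) 1, S.xg_mem_group _⟩ * ⟨S.xg (D.neg (D.simple i)) (-(1 : F)⁻¹), S.xg_mem_group _⟩ *
          ⟨S.xg (D.simple i) 1, S.xg_mem_group _⟩ := Subtype.ext (Sys.ng_def _ _ _)
    rw [e, map_mul, map_mul, hp, hn]
    exact Subtype.ext (Sys.ng_def _ _ _).symm
  have hmem : ∀ i < D.rank, S.ng (D.simple i) (1 : F) ∈ D.group F := by
    intro i hi
    rw [Sys.ng_def]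
    exact mul_mem (mul_mem (S.xg_mem_group _) (S.xg_mem_group _)) (S.xg_mem_group _)
  apply S.root_induction
  · intro i hi
    refine ⟨1, Or.inl rfl, fun t => ?_⟩
    have := hp ⟨i, hi⟩ t
    rw [one_mul, h1 ⟨i, hi⟩]
    exact this
  · rintro i hi r hr ⟨ε, hε, ih⟩
    have hr' : D.permRoot π r < D.nroots := h2 ⟨r, hr⟩
    refine ⟨((S.η (π ⟨i, hi⟩) (D.permRoot π r) : ℤ) : F) * (ε * ((S.η i r : ℤ) : F)), ?_, fun t => ?_⟩
    · rcases S.η_cases (π ⟨i, hi⟩) (D.permRoot π r) with e | e <;> rcases S.η_cases i r with e' | e' <;>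
        rcases hε with rfl | rfl <;> rw [e, e'] <;> simp
    · have c1 := S.ng_conj hi hr (((S.η i r : ℤ) : F) * t)
      have c2 : ((S.η i r : ℤ) : F) * (((S.η i r : ℤ) : F) * t) = t := by
        rcases S.η_cases i r with e | e <;> rw [e] <;> simp
      rw [c2] at c1
      have e : (⟨S.xg (D.reflectRoot i r) t, S.xg_mem_group t⟩ : ↥(D.group F)) =
          ⟨S.ng (D.simple i) (1 : F), hmem i hi⟩ * ⟨S.xg r (((S.η i r : ℤ) : F) * t), S.xg_mem_group _⟩ *
            (⟨S.ng (D.simple i) (1 : F), hmem i hi⟩ : ↥(D.group F))⁻¹ := Subtype.ext c1.symm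
      rw [e, map_mul, map_mul, map_inv, ih, hni ⟨i, hi⟩ (hmem i hi) (hmem _ (π ⟨i, hi⟩).2)]
      apply Subtype.ext
      show S.ng (D.simple (π ⟨i, hi⟩)) (1 : F) * S.xg (D.permRoot π r) _ * (S.ng (D.simple (π ⟨i, hi⟩)) (1 : F))⁻¹ = _
      rw [S.ng_conj (π ⟨i, hi⟩).2 hr', h3 ⟨i, hi⟩ ⟨r, hr⟩]
      simp only [mul_assoc]

end Cfsg.Agent.Lib.Helper7
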