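import Cfsg.Agent.Lib.Helper7.Par3

set_option autoImplicit false
set_option linter.unusedSimpArgs false
set_option linter.unusedVariables false
set_option linter.unusedSectionVars false

namespace Cfsg.Agent.Lib.Helper7

open Cfsg.Lie Cfsg.Lie.ChevalleyDatum Matrix Equiv

noncomputable def pfChkA1 (X : Fast) (W : FastW) : Bool :=
  allLt X.l fun i => allLt X.l fun j =>
    Nat.beq (carP X (X.n - 1 - simpleF W i) j) (carN X (simpleF W i) j) &&
    Nat.beq (carN X (X.n - 1 - simpleF W i) j) (carP X (simpleF W i) j)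

noncomputable def pfChkA2 (X : Fast) (W : FastW) : Bool :=
  allLt X.l fun i => allLt X.l fun k => Nat.beq i k ||
    anyLt X.n fun p => Nat.ble (X.n / 2) p && !Nat.beq (corP X p k) 0 &&
      anyLt X.n fun q => Nat.ble (X.n / 2) q && !Nat.beq (corP X q k) 0 &&
        allLt X.l fun j =>
          Nat.beq (Nat.add (Nat.add (carP X (simpleF W i) j) (carN X p j)) (carP X q j))
            (Nat.add (Nat.add (carN X (simpleF W i) j) (carP X p j)) (carN X q j))

noncomputable def pfChkB (X : Fast) (W : FastW) : Bool :=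
  allLt X.l fun i => allLt X.l fun k =>
    anyLt X.n fun r => Nat.ble (X.n / 2) r && !Nat.beq (corP X r k) 0 && Nat.blt (sig X W i r) r

structure PFTab {D : ChevalleyDatum} (S : Sys5 D) : Prop where
  a1 : pfChkA1 S.X S.W = true
  a2 : pfChkA2 S.X S.W = true
  b : pfChkB S.X S.W = true

namespace PFTab

variable {D : ChevalleyDatum} {S : Sys5 D} (Q : PFTab S) (T : ParTab S)
include Q

theorem cartan_neg_simple {i j : ℕ} (hi : i < D.rank) (hj : j < D.rank) :
    D.cartan j (D.neg (D.simple i)) = - D.cartan j (D.simple i) := by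
  have h := allLt_sound (allLt_sound Q.a1 i (S.hl ▸ hi)) j (S.hl ▸ hj)
  simp only [Bool.and_eq_true, nbeq_iff] at h
  rw [cartan_eq S.ag (S.hl ▸ hj) (S.hn ▸ S.neg_lt (S.simple_lt hi)),
    cartan_eq S.ag (S.hl ▸ hj) (S.hn ▸ S.simple_lt hi), S.neg_eq (S.simple_lt hi), S.hn, S.simple_eq hi, h.1, h.2]
  ring

include T in
theorem exists_pq {i k : ℕ} (hi : i < D.rank) (hk : k < D.rank) (hne : i ≠ k) :
    ∃ p q, D.IsPosRoot p ∧ cf D p k ≠ 0 ∧ D.IsPosRoot q ∧ cf D q k ≠ 0 ∧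
      ∀ j < D.rank, D.cartan j (D.simple i) = D.cartan j p - D.cartan j q := by
  have h := allLt_sound (allLt_sound Q.a2 i (S.hl ▸ hi)) k (S.hl ▸ hk)
  simp only [Bool.or_eq_true, nbeq_iff] at h
  rcases h with h | h
  · exact absurd h hne
  obtain ⟨p, hp, h⟩ := anyLt_sound h
  simp only [Bool.and_eq_true, Bool.not_eq_true', nbeq_false_iff, Nat.ble_eq] at h
  obtain ⟨⟨hp1, hp2⟩, h⟩ := h
  obtain ⟨q, hq, h⟩ := anyLt_sound h
  simp only [Bool.and_eq_true, Bool.not_eq_true', nbeq_false_iff, Nat.ble_eq] at h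
  obtain ⟨⟨hq1, hq2⟩, h⟩ := h
  have hpp : D.IsPosRoot p := S.isPos_iff.2 ⟨by rw [S.hn]; exact hp1, by rw [S.hn]; exact hp⟩
  have hqp : D.IsPosRoot q := S.isPos_iff.2 ⟨by rw [S.hn]; exact hq1, by rw [S.hn]; exact hq⟩
  refine ⟨p, q, hpp, ?_, hqp, ?_, fun j hj => ?_⟩
  · rw [T.cf_eq hpp.1 hk, T.corN_zero hpp hk]; simpa using hp2
  · rw [T.cf_eq hqp.1 hk, T.corN_zero hqp hk]; simpa using hq2
  · have h2 := nbeq_iff.1 (allLt_sound h j (S.hl ▸ hj))
    rw [cartan_eq S.ag (S.hl ▸ hj) (S.hn ▸ S.simple_lt hi), cartan_eq S.ag (S.hl ▸ hj) hp,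
      cartan_eq S.ag (S.hl ▸ hj) hq, S.simple_eq hi]
    have h3 : carP S.X (simpleF S.W i) j + carN S.X p j + carP S.X q j =
      carN S.X (simpleF S.W i) j + carP S.X p j + carN S.X q j := h2
    omega

include T in
theorem exists_r {i k : ℕ} (hi : i < D.rank) (hk : k < D.rank) :
    ∃ r, D.IsPosRoot r ∧ cf D r k ≠ 0 ∧ D.reflectRoot i r < r := by
  have h := allLt_sound (allLt_sound Q.b i (S.hl ▸ hi)) k (S.hl ▸ hk)
  obtain ⟨r, hr, h⟩ := anyLt_sound h
  simp only [Bool.and_eq_true, Bool.not_eq_true', nbeq_false_iff, Nat.ble_eq, Nat.blt_eq] at h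
  obtain ⟨⟨h1, h2⟩, h3⟩ := h
  have hrp : D.IsPosRoot r := S.isPos_iff.2 ⟨by rw [S.hn]; exact h1, by rw [S.hn]; exact hr⟩
  refine ⟨r, hrp, ?_, ?_⟩
  · rw [T.cf_eq hrp.1 hk, T.corN_zero hrp hk]; simpa using h2
  · rw [S.refl_eq hi hrp.1]; exact h3

end PFTab

theorem chi_rel {F : Type*} [Field F] (D : ChevalleyDatum) (L : List ℕ) (c : ℕ → F) (hc : ∀ i ∈ L, c i ≠ 0)
    {s p q : ℕ} (h : ∀ j ∈ L, D.cartan j s = D.cartan j p - D.cartan j q) :
    chi D L c s * chi D L c q = chi D L c p := by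
  induction L with
  | nil => simp [chi]
  | cons i L ih =>
    have e : ∀ s, chi D (i :: L) c s = c i ^ D.cartan i s * chi D L c s := fun s => by simp [chi]
    rw [e, e, e, ← ih (fun j hj => hc j (List.mem_cons_of_mem _ hj)) (fun j hj => h j (List.mem_cons_of_mem _ hj)),
      h i List.mem_cons_self, zpow_sub₀ (hc i List.mem_cons_self)]
    have : c i ^ D.cartan i q ≠ 0 := zpow_ne_zero _ (hc i List.mem_cons_self)
    field_simp

theorem chi_negrel {F : Type*} [Field F] (D : ChevalleyDatum) (L : List ℕ) (c : ℕ → F) (hc : ∀ i ∈ L, c i ≠ 0)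
    {s q : ℕ} (h : ∀ j ∈ L, D.cartan j s = - D.cartan j q) :
    chi D L c s * chi D L c q = 1 := by
  induction L with
  | nil => simp [chi]
  | cons i L ih =>
    have e : ∀ s, chi D (i :: L) c s = c i ^ D.cartan i s * chi D L c s := fun s => by simp [chi]
    have h1 := ih (fun j hj => hc j (List.mem_cons_of_mem _ hj)) (fun j hj => h j (List.mem_cons_of_mem _ hj))
    rw [e, e, h i List.mem_cons_self, _root_.zpow_neg]
    have : c i ^ D.cartan i q ≠ 0 := zpow_ne_zero _ (hc i List.mem_cons_self)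
    calc (c i ^ D.cartan i q)⁻¹ * chi D L c s * (c i ^ D.cartan i q * chi D L c q)
        = ((c i ^ D.cartan i q)⁻¹ * c i ^ D.cartan i q) * (chi D L c s * chi D L c q) := by ring
      _ = 1 := by rw [h1, inv_mul_cancel₀ this, one_mul]

end Cfsg.Agent.Lib.Helper7
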