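import Cfsg.Agent.Lib.Helper7.PF1
import Cfsg.Agent.Lib.Helper7.Par5T

set_option autoImplicit false

namespace Cfsg.Agent.Lib.Helper7

theorem pfA1_G2 : pfChkA1 fastG2 fastWG2 = true := by decide +kernel
theorem pfA2_G2 : pfChkA2 fastG2 fastWG2 = true := by decide +kernel
theorem pfB_G2 : pfChkB fastG2 fastWG2 = true := by decide +kernel
theorem pfTabG2 : PFTab sys5G2 := ⟨pfA1_G2, pfA2_G2, pfB_G2⟩
theorem pfA1_B2 : pfChkA1 fastB2 fastWB2 = true := by decide +kernel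
theorem pfA2_B2 : pfChkA2 fastB2 fastWB2 = true := by decide +kernel
theorem pfB_B2 : pfChkB fastB2 fastWB2 = true := by decide +kernel
theorem pfTabB2 : PFTab sys5B2 := ⟨pfA1_B2, pfA2_B2, pfB_B2⟩
theorem pfA1_D4 : pfChkA1 fastD4 fastWD4 = true := by decide +kernel
theorem pfA2_D4 : pfChkA2 fastD4 fastWD4 = true := by decide +kernel
theorem pfB_D4 : pfChkB fastD4 fastWD4 = true := by decide +kernel
theorem pfTabD4 : PFTab sys5D4 := ⟨pfA1_D4, pfA2_D4, pfB_D4⟩
theorem pfA1_F4 : pfChkA1 fastF4 fastWF4 = true := by decide +kernel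
theorem pfA2_F4 : pfChkA2 fastF4 fastWF4 = true := by decide +kernel
theorem pfB_F4 : pfChkB fastF4 fastWF4 = true := by decide +kernel
theorem pfTabF4 : PFTab sys5F4 := ⟨pfA1_F4, pfA2_F4, pfB_F4⟩
theorem pfA1_E6 : pfChkA1 fastE6 fastWE6 = true := by decide +kernel
theorem pfA2_E6 : pfChkA2 fastE6 fastWE6 = true := by decide +kernel
theorem pfB_E6 : pfChkB fastE6 fastWE6 = true := by decide +kernel
theorem pfTabE6 : PFTab sys5E6 := ⟨pfA1_E6, pfA2_E6, pfB_E6⟩
theorem pfA1_E7 : pfChkA1 fastE7 fastWE7 = true := by decide +kernel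
theorem pfA2_E7 : pfChkA2 fastE7 fastWE7 = true := by decide +kernel
theorem pfB_E7 : pfChkB fastE7 fastWE7 = true := by decide +kernel
theorem pfTabE7 : PFTab sys5E7 := ⟨pfA1_E7, pfA2_E7, pfB_E7⟩
theorem pfA1_E8 : pfChkA1 fastE8 fastWE8 = true := by decide +kernel
theorem pfA2_E8 : pfChkA2 fastE8 fastWE8 = true := by decide +kernel
theorem pfB_E8 : pfChkB fastE8 fastWE8 = true := by decide +kernel
theorem pfTabE8 : PFTab sys5E8 := ⟨pfA1_E8, pfA2_E8, pfB_E8⟩

end Cfsg.Agent.Lib.Helper7
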