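import Cfsg.Agent.Lib.Helper7.PF1
import Cfsg.Agent.Lib.Helper7.Filt2
import Cfsg.Agent.Lib.Helper7.RS1
import Cfsg.Agent.Lib.Helper7.Core
import Cfsg.Agent.Lib.Helper16.FS

set_option autoImplicit false
set_option linter.unusedSimpArgs false
set_option linter.unusedVariables false
set_option linter.unusedSectionVars false

namespace Cfsg.Agent.Lib.Helper7

open Cfsg.Lie Cfsg.Lie.ChevalleyDatum Matrix Equiv

namespace PFTab

variable {D : ChevalleyDatum} {S : Sys5 D} (Q : PFTab S) (T : ParTab S) {F : Type*} [Field F] (J : Set ℕ)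

omit Q in
theorem diag_le_normalizer_Uk (k : ℕ) :
    D.diagonalSubgroup F ≤ Subgroup.normalizer (S.Uk F k : Set (GL D.Idx F)) := by
  unfold Sys5.Uk
  rw [Subgroup.le_normalizer_closure_iff]
  rintro h hh _ ⟨r, t, hr, hk, rfl⟩
  obtain ⟨χ, _, _, h3⟩ := S.diag_char hh
  rw [h3 r hr.1]
  exact Subgroup.subset_closure ⟨r, _, hr, hk, rfl⟩

theorem borel_conj_Uk {k : ℕ} {b c : GL D.Idx F} (hb : b ∈ D.borelSubgroup F) (hc : c ∈ S.Uk F k) :
    b * c * b⁻¹ ∈ S.Uk F k := by
  obtain ⟨u, hu, h, hh, rfl⟩ := S.mem_borel hb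
  have e : (u * h) * c * (u * h)⁻¹ = u * (h * c * h⁻¹) * u⁻¹ := by group
  rw [e]
  exact S.conj_mem_Uk hu (Subgroup.le_normalizer_iff.1 (diag_le_normalizer_Uk k) h hh c hc)

theorem not_inSub {k r : ℕ} (hk : k < D.rank) (hkJ : k ∉ J) (h : cf D r k ≠ 0) : ¬ D.InRootSub J r :=
  fun h' => h (h'.2 k hk hkJ)

include Q T in
theorem ni_not_mem {i k : ℕ} (hi : i < D.rank) (hk : k < D.rank) (hkJ : k ∉ J) {c b : GL D.Idx F}
    (hb : b ∈ D.borelSubgroup F) (hc : ∀ x ∈ D.unipotentRadical F J, c * x * c⁻¹ = x)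
    (e : S.ng (D.simple i) (1 : F) = c * b) : False := by
  obtain ⟨r, hr, hcf, hlt⟩ := Q.exists_r T hi hk
  have hx : S.xg r (1 : F) ∈ D.unipotentRadical F J := ParTab.xg_mem_urad J hr (not_inSub J hk hkJ hcf) 1
  have hy : b⁻¹ * S.xg r (1 : F) * b⁻¹⁻¹ ∈ S.Uk F r := borel_conj_Uk (inv_mem hb) (S.xg_mem_Uk hr le_rfl 1)
  have h1 := hc _ hx
  have hr' : D.reflectRoot i r < D.nroots := S.refl_lt hi hr.1
  have h2 := ParTab.ng_conj' (S := S) hi hr' (1 : F)
  rw [S.refl_refl hi hr.1] at h2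
  have hc' : c = S.ng (D.simple i) (1 : F) * b⁻¹ := by rw [e]; group
  have h3 : b⁻¹ * S.xg r (1 : F) * b⁻¹⁻¹ =
      S.xg (D.reflectRoot i r) (((S.η i (D.reflectRoot i r) : ℤ) : F) * 1) := by
    have h4 : S.ng (D.simple i) (1 : F) * (b⁻¹ * S.xg r (1 : F) * b⁻¹⁻¹) * (S.ng (D.simple i) (1 : F))⁻¹ =
        S.ng (D.simple i) (1 : F) * S.xg (D.reflectRoot i r) (((S.η i (D.reflectRoot i r) : ℤ) : F) * 1) *
          (S.ng (D.simple i) (1 : F))⁻¹ := by
      rw [← h2]
      conv_rhs => rw [← h1, hc']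
      group
    exact mul_left_cancel (mul_right_cancel h4)
  rw [h3, mul_one] at hy
  have hη : ((S.η i (D.reflectRoot i r) : ℤ) : F) ≠ 0 := S.ηF_ne_zero _ _
  rcases S.pos_or_neg hr' with hp | hn
  · exact hη (S.xg_mem_Uk_succ hp (S.Uk_mono (by omega) hy))
  · have h5 : S.xg (D.reflectRoot i r) ((S.η i (D.reflectRoot i r) : ℤ) : F) ∈
        D.posUnipotent F ⊓ D.negUnipotent F := ⟨S.Uk_le_pos _ hy, S.xg_mem_neg hn _⟩
    rw [S.pos_inf_neg, Subgroup.mem_bot] at h5
    exact hη (S.xg_eq_one S.noDbl hr' h5)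

include T in
theorem par_le_normalizer_K : D.parabolicSubgroup F J ≤ Subgroup.normalizer
    ((D.parabolicSubgroup F J ⊓ Subgroup.centralizer (D.unipotentRadical F J : Set (GL D.Idx F)) :
      Subgroup (GL D.Idx F)) : Set (GL D.Idx F)) :=
  Cfsg.Agent.Lib.Helper16.le_normalizer_inf Subgroup.le_normalizer
    (le_trans (T.par_le_normalizer J) (Cfsg.Agent.Lib.Helper16.normalizer_le_normalizer_centralizer _))

include Q T in
theorem cent_le_borel {k : ℕ} (hk : k < D.rank) (hkJ : k ∉ J) :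
    D.parabolicSubgroup F J ⊓ Subgroup.centralizer (D.unipotentRadical F J : Set (GL D.Idx F)) ≤
      D.borelSubgroup F := by
  set K : Subgroup (GL D.Idx F) :=
    D.parabolicSubgroup F J ⊓ Subgroup.centralizer (D.unipotentRadical F J : Set (GL D.Idx F)) with hK
  have hKn : D.borelSubgroup F ≤ Subgroup.normalizer (K : Set (GL D.Idx F)) :=
    le_trans (ParTab.borel_le_par J) (par_le_normalizer_K T J)
  set M : Subgroup ↥(D.group F) := (K ⊔ D.borelSubgroup F).subgroupOf (D.group F) with hMdef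
  have hBM : (S.bnPair F).B ≤ M := by
    intro b hb
    exact (le_sup_right : D.borelSubgroup F ≤ K ⊔ D.borelSubgroup F) hb
  have hM := Cfsg.Agent.Lib.Helper3.eq_parabolic (S.bnPair F) hBM
  have hMle : M ≤ (D.borelSubgroup F).subgroupOf (D.group F) := by
    rw [hM]
    unfold Cfsg.BNPair.parabolic
    apply sup_le
    · intro b hb
      exact hb
    · rw [Subgroup.closure_le]
      rintro x ⟨⟨i, hi, hx⟩, hxM⟩
      exfalso
      have hx' := S.eq_ng.1 hx
      have hxM' : (x : GL D.Idx F) ∈ K ⊔ D.borelSubgroup F := hxM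
      obtain ⟨c, hc, b, hb, e⟩ := mem_sup_of_le_normalizer hKn hxM'
      refine ni_not_mem Q T J hi hk hkJ hb (c := c) ?_ (hx' ▸ e)
      intro y hy
      have := (Subgroup.mem_centralizer_iff.1 hc.2) y hy
      rw [← this]; group
  intro g hg
  have hgG : g ∈ D.group F := ParTab.par_le_group (S := S) J hg.1
  exact hMle (show (⟨g, hgG⟩ : ↥(D.group F)) ∈ M from
    (le_sup_left : K ≤ K ⊔ D.borelSubgroup F) hg)

include Q T in
theorem cent_le_pos {k : ℕ} (hk : k < D.rank) (hkJ : k ∉ J) :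
    D.parabolicSubgroup F J ⊓ Subgroup.centralizer (D.unipotentRadical F J : Set (GL D.Idx F)) ≤
      D.posUnipotent F := by
  intro g hg
  obtain ⟨u, hu, h, hh, rfl⟩ := S.mem_borel (cent_le_borel Q T J hk hkJ hg)
  obtain ⟨c, hc, rfl⟩ := S.exists_hpr hh
  have hL : ∀ i ∈ List.range D.rank, i < D.rank := fun i hi => List.mem_range.1 hi
  have hcL : ∀ i ∈ List.range D.rank, c i ≠ 0 := fun i _ => hc i
  have hconj : ∀ s < D.nroots, ∀ t : F, S.hpr (List.range D.rank) c * S.xg s t * (S.hpr (List.range D.rank) c)⁻¹ =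
      S.xg s (chi D (List.range D.rank) c s * t) := fun s hs t => S.hpr_conj _ c hL hcL hs t
  have hΨ : ∀ r, D.IsPosRoot r → cf D r k ≠ 0 → chi D (List.range D.rank) c r = 1 := by
    intro r hr hcf
    have hx : S.xg r (1 : F) ∈ D.unipotentRadical F J := ParTab.xg_mem_urad J hr (not_inSub J hk hkJ hcf) 1
    have h1 := (Subgroup.mem_centralizer_iff.1 hg.2) _ hx
    have h2 := S.comm_mem_Uk hr (1 : F) hu
    have h3 : u⁻¹ * (S.xg r (1 : F))⁻¹ * u = (S.xg r (chi D (List.range D.rank) c r * 1))⁻¹ := by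
      rw [← hconj r hr.1 1]
      have h4 : S.xg r (1 : F) = (u * S.hpr (List.range D.rank) c) * S.xg r (1 : F) *
          (u * S.hpr (List.range D.rank) c)⁻¹ := by
        rw [← h1]; group
      conv_lhs => rw [h4]
      group
    rw [h3, Sys.xg_inv, Sys.xg_add] at h2
    have := S.xg_mem_Uk_succ hr h2
    linear_combination -this
  have hs : ∀ i < D.rank, chi D (List.range D.rank) c (D.simple i) = 1 := by
    intro i hi
    by_cases hik : i = k
    · subst hik
      apply hΨ _ (S.simple_pos hi)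
      rw [T.cf_simple hi hi]; simp
    · obtain ⟨p, q, hp, hpk, hq, hqk, hrel⟩ := Q.exists_pq T hi hk hik
      have := chi_rel D (List.range D.rank) c hcL (fun j hj => hrel j (hL j hj))
      rw [hΨ p hp hpk, hΨ q hq hqk, mul_one] at this
      exact this
  have hn : ∀ i < D.rank, chi D (List.range D.rank) c (D.neg (D.simple i)) = 1 := by
    intro i hi
    have := chi_negrel D (List.range D.rank) c hcL (fun j hj => Q.cartan_neg_simple hi (hL j hj))
    rw [hs i hi, mul_one] at this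
    exact this
  have hcen : D.group F ≤ Subgroup.centralizer {S.hpr (List.range D.rank) c} := by
    rw [S.gen_fund, Subgroup.closure_le]
    rintro _ ⟨e, i, t, hi, rfl⟩
    rw [SetLike.mem_coe, Subgroup.mem_centralizer_singleton_iff]
    have hlt : rt D e i < D.nroots := by
      cases e
      · exact S.neg_lt (S.simple_lt hi)
      · exact S.simple_lt hi
    have hone : chi D (List.range D.rank) c (rt D e i) = 1 := by
      cases e
      · exact hn i hi
      · exact hs i hi
    have := hconj _ hlt t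
    rw [hone, one_mul, mul_inv_eq_iff_eq_mul] at this
    first | exact this | exact this.symm
  have h1 : S.hpr (List.range D.rank) c = 1 := by
    apply S.core_trivial
    intro g hg
    have := Subgroup.mem_centralizer_singleton_iff.1 (hcen hg)
    have e : g * S.hpr (List.range D.rank) c * g⁻¹ = S.hpr (List.range D.rank) c := by
      first
        | (rw [this]; group)
        | (rw [← this]; group)
    rw [e]
    exact S.diag_le_borel hh
  rw [h1, mul_one]
  exact hu

include Q T in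
theorem fstar_par [Fintype F] (p : ℕ) [Fact p.Prime] [_root_.CharP F p] {k : ℕ} (hk : k < D.rank) (hkJ : k ∉ J) :
    IsPGroup p ↥(Cfsg.generalizedFittingSubgroup ↥(D.parabolicSubgroup F J)) := by
  have hch : Cfsg.Agent.Lib.Helper16.CharP p (D.parabolicSubgroup F J) := by
    unfold Cfsg.Agent.Lib.Helper16.CharP
    have hV : D.unipotentRadical F J ≤ Cfsg.pCoreOf p (D.parabolicSubgroup F J) :=
      Cfsg.Agent.Lib.Helper16.le_pCoreOf
        (le_trans (ParTab.urad_le_pos (S := S) J) (le_trans S.pos_le_borel (ParTab.borel_le_par J)))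
        (T.par_le_normalizer J) ((S.isPGroup_pos p).to_le (ParTab.urad_le_pos (S := S) J))
    have hK : D.parabolicSubgroup F J ⊓ Subgroup.centralizer (D.unipotentRadical F J : Set (GL D.Idx F)) ≤
        Cfsg.pCoreOf p (D.parabolicSubgroup F J) :=
      Cfsg.Agent.Lib.Helper16.le_pCoreOf inf_le_left (par_le_normalizer_K T J)
        ((S.isPGroup_pos p).to_le (cent_le_pos Q T J hk hkJ))
    exact le_trans (inf_le_inf_left _ (Subgroup.centralizer_le hV)) hK
  rw [(Cfsg.Agent.Lib.Helper16.fstar_iff_charP _).2 hch]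
  exact Cfsg.Agent.Lib.Helper16.pCore_isPGroup

end PFTab

end Cfsg.Agent.Lib.Helper7
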