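import Cfsg.Agent.Lib.Helper7.PoinTab
import Cfsg.Agent.Lib.Helper7.Order

set_option autoImplicit false
set_option linter.unusedSimpArgs false
set_option linter.unusedVariables false
set_option linter.unusedSectionVars false

namespace Cfsg.Agent.Lib.Helper7

open Cfsg.Lie Cfsg.Lie.ChevalleyDatum Equiv

/-- the action of a word through the fast table -/
noncomputable def sigL (X : Fast) (W : FastW) (L : List ℕ) (s : ℕ) : ℕ := L.foldr (fun i s => sig X W i s) s

namespace StepC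

/-- the checks concerning the `a`-th coset representative -/
noncomputable def chkAJ (X : Fast) (W : FastW) (O : ℕ → List ℕ) (C : StepC) (a : ℕ) : Bool :=
  ((Nat.beq a 0 && allLt X.n fun s => Nat.beq (C.tp X.n a s) s) ||
   (Nat.blt (C.par a) a && Nat.blt (C.gen a) X.l && Nat.testBit C.I (C.gen a) &&
     allLt X.n fun s => Nat.beq (C.tp X.n a s) (sigL X W (O (C.gen a)) (C.tp X.n (C.par a) s)))) &&
  (allLt X.l fun i => !Nat.testBit C.I i ||
    (Nat.blt (C.act X.l a i) C.m &&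
      allLt X.n fun s => Nat.beq (sigL X W (O i) (C.tp X.n a s)) (C.tp X.n (C.act X.l a i) s)) ||
    (Nat.ble C.m (C.act X.l a i) && Nat.blt (C.act X.l a i - C.m) X.l && Nat.testBit C.J (C.act X.l a i - C.m) &&
      allLt X.n fun s => Nat.beq (sigL X W (O i) (C.tp X.n a s)) (C.tp X.n a (sigL X W (O (C.act X.l a i - C.m)) s)))) &&
  Nat.beq (C.ix (C.tp X.n a C.θ)) a &&
  (allLt X.n fun s => !Nat.testBit C.Psi s || (Nat.ble (X.n / 2) (C.tp X.n a s) == Nat.ble (X.n / 2) s))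

/-- the global checks -/
noncomputable def chkGJ (X : Fast) (W : FastW) (O : ℕ → List ℕ) (C : StepC) : Bool :=
  Nat.blt 0 C.m && Nat.blt C.θ X.n &&
  allLt X.l fun j => !Nat.testBit C.J j ||
    (Nat.testBit C.I j && Nat.beq (sigL X W (O j) C.θ) C.θ &&
      allLt X.n fun s =>
        (!Nat.testBit C.Psi s || Nat.testBit C.Psi (sigL X W (O j) s)) &&
        (Nat.blt s (X.n / 2) || Nat.testBit C.Psi s ||
          (Nat.ble (X.n / 2) (sigL X W (O j) s) && !Nat.testBit C.Psi (sigL X W (O j) s))))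

end StepC

namespace Sys2

variable {D : ChevalleyDatum} (S : Sys2 D)

theorem σw_eq_sigL {L : List ℕ} (hL : OKw D L) {s : ℕ} (hs : s < D.nroots) : σw D L s = sigL S.X S.W L s := by
  induction L with
  | nil => rfl
  | cons i L ih =>
    rw [σw_cons, S.refl_eq hL.head (S.σw_lt hL.tail hs), ih hL.tail]
    rfl

theorem hapJ (O : ℕ → List ℕ) (hO : ∀ i < D.rank, OKw D (O i)) {i : ℕ} (hi : i < D.rank) (s : Fin D.nroots) :
    (S.wperm (O i) s).val = sigL S.X S.W (O i) s.val := by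
  rw [S.wperm_apply (hO i hi), S.σw_eq_sigL (hO i hi) s.2]

/-- generators of the parabolic subgroups of the twisted Weyl group -/
def genJ (O : ℕ → List ℕ) (I : ℕ) : Set (Perm (Fin D.nroots)) :=
  {g | ∃ i < D.rank, Nat.testBit I i = true ∧ g = S.wperm (O i)}

/-- the parabolic subgroups of the twisted Weyl group, `I` a bit mask -/
noncomputable def WJ (O : ℕ → List ℕ) (I : ℕ) : Subgroup (Perm (Fin D.nroots)) := Subgroup.closure (S.genJ O I)

theorem WJ_zero (O : ℕ → List ℕ) : S.WJ O 0 = ⊥ := by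
  unfold WJ genJ
  rw [Subgroup.closure_eq_bot_iff]
  rintro _ ⟨i, _, h, _⟩
  simp at h

theorem stepJ (O : ℕ → List ℕ) (hO : ∀ i < D.rank, OKw D (O i)) (hsq : ∀ i < D.rank, S.wperm (O i) * S.wperm (O i) = 1)
    (C : StepC) (hG : C.chkGJ S.X S.W O = true) (hA : ∀ a < C.m, C.chkAJ S.X S.W O a = true) (q : ℕ) :
    poin (posF D) (S.WJ O C.I) q = (∑ a ∈ Finset.range C.m, q ^ cntF S.X C a) * poin (posF D) (S.WJ O C.J) q := by
  classical
  have hn := S.hn
  have hl := S.hl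
  have hlt : ∀ s : Fin D.nroots, s.val < S.X.n := fun s => by rw [← hn]; exact s.2
  have hpos : ∀ {s : Fin D.nroots}, posF D s ↔ S.X.n / 2 ≤ s.val := fun {s} => by
    have h2 : D.nroots / 2 = S.X.n / 2 := by rw [hn]
    unfold posF; omega
  simp only [StepC.chkGJ, Bool.and_eq_true, Nat.blt_eq] at hG
  obtain ⟨⟨hm, hθ⟩, hJ⟩ := hG
  -- unpack the checks
  have hA' : ∀ a < C.m,
      ((a = 0 ∧ ∀ s < S.X.n, C.tp S.X.n a s = s) ∨
        (C.par a < a ∧ C.gen a < S.X.l ∧ Nat.testBit C.I (C.gen a) = true ∧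
          ∀ s < S.X.n, C.tp S.X.n a s = sigL S.X S.W (O (C.gen a)) (C.tp S.X.n (C.par a) s))) ∧
      (∀ i < S.X.l, Nat.testBit C.I i = true →
        (C.act S.X.l a i < C.m ∧ ∀ s < S.X.n, sigL S.X S.W (O i) (C.tp S.X.n a s) = C.tp S.X.n (C.act S.X.l a i) s) ∨
        (C.act S.X.l a i - C.m < S.X.l ∧ Nat.testBit C.J (C.act S.X.l a i - C.m) = true ∧
          ∀ s < S.X.n, sigL S.X S.W (O i) (C.tp S.X.n a s) = C.tp S.X.n a (sigL S.X S.W (O (C.act S.X.l a i - C.m)) s))) ∧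
      C.ix (C.tp S.X.n a C.θ) = a ∧
      (∀ s < S.X.n, Nat.testBit C.Psi s = true → (S.X.n / 2 ≤ C.tp S.X.n a s ↔ S.X.n / 2 ≤ s)) := by
    intro a ha
    have h := hA a ha
    simp only [StepC.chkAJ, Bool.and_eq_true, Bool.or_eq_true, nbeq_iff, Nat.blt_eq, Nat.ble_eq] at h
    obtain ⟨⟨⟨h1, h2⟩, h3⟩, h4⟩ := h
    refine ⟨?_, ?_, h3, ?_⟩
    · rcases h1 with ⟨h0, h1⟩ | ⟨⟨⟨h5, h6⟩, h7⟩, h8⟩
      · left
        exact ⟨h0, fun s hs => nbeq_iff.1 (allLt_sound h1 s hs)⟩
      · right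
        exact ⟨h5, h6, h7, fun s hs => nbeq_iff.1 (allLt_sound h8 s hs)⟩
    · intro i hi hI
      have h5 := allLt_sound h2 i hi
      simp only [Bool.and_eq_true, Bool.or_eq_true, Nat.blt_eq, Nat.ble_eq, Bool.not_eq_true', hI] at h5
      rcases h5 with (h5 | ⟨h5, h6⟩) | ⟨⟨⟨_, h6⟩, h7⟩, h8⟩
      · exact absurd h5 (by simp)
      · left
        exact ⟨h5, fun s hs => nbeq_iff.1 (allLt_sound h6 s hs)⟩
      · right
        exact ⟨h6, h7, fun s hs => nbeq_iff.1 (allLt_sound h8 s hs)⟩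
    · intro s hs hP
      have h5 := allLt_sound h4 s hs
      simp only [Bool.or_eq_true, Bool.not_eq_true', hP, beq_iff_eq] at h5
      rcases h5 with h5 | h5
      · exact absurd h5 (by simp)
      · rw [← Nat.ble_eq, ← Nat.ble_eq, h5]
  have hJ' : ∀ j < S.X.l, Nat.testBit C.J j = true → Nat.testBit C.I j = true ∧ sigL S.X S.W (O j) C.θ = C.θ ∧
      ∀ s < S.X.n, (Nat.testBit C.Psi s = true → Nat.testBit C.Psi (sigL S.X S.W (O j) s) = true) ∧
        (S.X.n / 2 ≤ s → Nat.testBit C.Psi s = false →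
          S.X.n / 2 ≤ sigL S.X S.W (O j) s ∧ Nat.testBit C.Psi (sigL S.X S.W (O j) s) = false) := by
    intro j hj hJj
    have h := allLt_sound hJ j hj
    simp only [Bool.and_eq_true, Bool.or_eq_true, Bool.not_eq_true', hJj, nbeq_iff] at h
    rcases h with h | ⟨⟨h1, h2⟩, h3⟩
    · exact absurd h (by simp)
    · refine ⟨h1, h2, fun s hs => ?_⟩
      have h4 := allLt_sound h3 s hs
      simp only [Bool.and_eq_true, Bool.or_eq_true, Bool.not_eq_true', Nat.blt_eq, Nat.ble_eq] at h4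
      refine ⟨fun hP => ?_, fun h5 h6 => ?_⟩
      · rcases h4.1 with h7 | h7
        · rw [hP] at h7; exact absurd h7 (by simp)
        · exact h7
      · rcases h4.2 with (h7 | h7) | h7
        · omega
        · rw [h6] at h7; exact absurd h7 (by simp)
        · exact h7
  -- the representatives as permutations
  have hex : ∀ a, a < C.m → ∃ π ∈ S.WJ O C.I, ∀ s : Fin D.nroots, (π s).val = C.tp S.X.n a s := by
    intro a
    induction a using Nat.strong_induction_on with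
    | _ a ih =>
      intro ha
      rcases (hA' a ha).1 with ⟨_, h1⟩ | ⟨h5, h6, h7, h8⟩
      · exact ⟨1, one_mem _, fun s => (h1 s (hlt s)).symm⟩
      · obtain ⟨π, hπ, h9⟩ := ih _ h5 (lt_trans h5 ha)
        have hg : C.gen a < D.rank := hl ▸ h6
        refine ⟨S.wperm (O (C.gen a)) * π, mul_mem (Subgroup.subset_closure ⟨_, hg, h7, rfl⟩) hπ, fun s => ?_⟩
        rw [Perm.mul_apply, S.hapJ O hO hg, h9, h8 s (hlt s)]
  choose! d hd1 hd2 using hex
  have hsJ : ∀ j < D.rank, Nat.testBit C.J j = true → S.wperm (O j) ∈ S.WJ O C.J := fun j hj h =>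
    Subgroup.subset_closure ⟨j, hj, h, rfl⟩
  -- properties of `W_J`
  have hθ' : C.θ < D.nroots := by rw [hn]; exact hθ
  have hWJ : ∀ v ∈ S.WJ O C.J, v ⟨C.θ, hθ'⟩ = ⟨C.θ, hθ'⟩ ∧
      (∀ s : Fin D.nroots, Nat.testBit C.Psi s.val = true → Nat.testBit C.Psi (v s).val = true) ∧
      (∀ s : Fin D.nroots, posF D s → ¬ Nat.testBit C.Psi s.val = true →
        posF D (v s) ∧ ¬ Nat.testBit C.Psi (v s).val = true) := by
    intro v hv
    unfold WJ at hv
    induction hv using Subgroup.closure_induction_left with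
    | one => exact ⟨rfl, fun s h => h, fun s h1 h2 => ⟨h1, h2⟩⟩
    | mul_left g hg y _ ih =>
      obtain ⟨j, hj, hJj, rfl⟩ := hg
      obtain ⟨h1, h2, h3⟩ := hJ' j (hl ▸ hj) hJj
      obtain ⟨i1, i2, i3⟩ := ih
      refine ⟨?_, fun s hs => ?_, fun s hs1 hs2 => ?_⟩
      · rw [Perm.mul_apply, i1]
        apply Fin.ext
        rw [S.hapJ O hO hj]
        exact h2
      · rw [Perm.mul_apply, S.hapJ O hO hj]
        exact (h3 _ (hlt (y s))).1 (i2 s hs)
      · obtain ⟨j1, j2⟩ := i3 s hs1 hs2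
        have := (h3 _ (hlt (y s))).2 (hpos.1 j1) (by simpa using j2)
        rw [Perm.mul_apply]
        refine ⟨hpos.2 ?_, ?_⟩
        · rw [S.hapJ O hO hj]
          exact this.1
        · rw [S.hapJ O hO hj]
          simp [this.2]
    | inv_mul_cancel g hg y _ ih =>
      obtain ⟨j, hj, hJj, rfl⟩ := hg
      have hinv : (S.wperm (O j))⁻¹ = S.wperm (O j) := inv_eq_of_mul_eq_one_left (hsq j hj)
      rw [hinv]
      obtain ⟨h1, h2, h3⟩ := hJ' j (hl ▸ hj) hJj
      obtain ⟨i1, i2, i3⟩ := ih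
      refine ⟨?_, fun s hs => ?_, fun s hs1 hs2 => ?_⟩
      · rw [Perm.mul_apply, i1]
        apply Fin.ext
        rw [S.hapJ O hO hj]
        exact h2
      · rw [Perm.mul_apply, S.hapJ O hO hj]
        exact (h3 _ (hlt (y s))).1 (i2 s hs)
      · obtain ⟨j1, j2⟩ := i3 s hs1 hs2
        have := (h3 _ (hlt (y s))).2 (hpos.1 j1) (by simpa using j2)
        rw [Perm.mul_apply]
        refine ⟨hpos.2 ?_, ?_⟩
        · rw [S.hapJ O hO hj]
          exact this.1
        · rw [S.hapJ O hO hj]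
          simp [this.2]
  have hJI : S.WJ O C.J ≤ S.WJ O C.I := by
    unfold WJ
    apply Subgroup.closure_mono
    rintro _ ⟨j, hj, hJj, rfl⟩
    exact ⟨j, hj, (hJ' j (hl ▸ hj) hJj).1, rfl⟩
  have main := poin_step (pos := posF D) (WI := S.WJ O C.I) (WJ := S.WJ O C.J) (G := S.genJ O C.I) rfl
    (by rintro _ ⟨i, hi, _, rfl⟩; exact hsq i hi) hJI
    (fun a : Fin C.m => d a.val) (fun a => hd1 a.val a.2) ⟨0, hm⟩
    (by
      ext s
      rw [hd2 0 hm]
      rcases (hA' 0 hm).1 with ⟨_, h1⟩ | ⟨h5, _⟩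
      · exact h1 s (hlt s)
      · omega)
    (by
      rintro _ ⟨i, hi, hIi, rfl⟩ a
      rcases (hA' a.val a.2).2.1 i (hl ▸ hi) hIi with ⟨h1, h2⟩ | ⟨h1, h2, h3⟩
      · refine ⟨⟨_, h1⟩, 1, one_mem _, ?_⟩
        ext s
        rw [mul_one, Perm.mul_apply, S.hapJ O hO hi, hd2 _ a.2, hd2 _ h1]
        exact h2 s (hlt s)
      · have hj : C.act S.X.l a.val i - C.m < D.rank := hl ▸ h1
        refine ⟨a, S.wperm (O _), hsJ _ hj h2, ?_⟩
        ext s
        rw [Perm.mul_apply, Perm.mul_apply, S.hapJ O hO hi, hd2 _ a.2, hd2 _ a.2,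
          S.hapJ O hO hj]
        exact h3 s (hlt s))
    ⟨C.θ, hθ'⟩ (fun v hv => (hWJ v hv).1)
    (by
      intro a b h
      have h1 := congrArg Fin.val h
      rw [hd2 _ a.2, hd2 _ b.2] at h1
      apply Fin.ext
      rw [← (hA' a.val a.2).2.2.1, ← (hA' b.val b.2).2.2.1]
      exact congrArg C.ix h1)
    (fun s => Nat.testBit C.Psi s.val = true)
    (fun v hv => (hWJ v hv).2.1) (fun v hv => (hWJ v hv).2.2)
    (by
      intro a s hs
      rw [hpos, hpos, hd2 _ a.2]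
      exact (hA' a.val a.2).2.2.2 s (hlt s) hs) q
  rw [main]
  congr 1
  rw [← Fin.sum_univ_eq_sum_range (fun a => q ^ cntF S.X C a)]
  apply Finset.sum_congr rfl
  intro a _
  congr 1
  unfold invN cntF
  rw [countLt_eq]
  apply Finset.card_bij (fun (s : Fin D.nroots) _ => s.val)
  · intro s hs
    simp only [Finset.mem_filter, Finset.mem_univ, true_and, Finset.mem_range, Bool.and_eq_true, Nat.ble_eq,
      Nat.blt_eq] at hs ⊢
    rw [hpos, hpos, hd2 _ a.2] at hs
    exact ⟨hlt s, hs.1, by omega⟩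
  · intro x _ y _ h
    exact Fin.ext h
  · intro s hs
    simp only [Finset.mem_filter, Finset.mem_range, Bool.and_eq_true, Nat.ble_eq, Nat.blt_eq] at hs
    refine ⟨⟨s, by rw [hn]; exact hs.1⟩, ?_, rfl⟩
    simp only [Finset.mem_filter, Finset.mem_univ, true_and]
    rw [hpos, hpos, hd2 _ a.2]
    exact ⟨hs.2.1, not_le.2 hs.2.2⟩

end Sys2

end Cfsg.Agent.Lib.Helper7
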