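import Cfsg.Agent.Lib.Helper7.Perf
import Cfsg.Prelude.Def_SteinbergCover

set_option autoImplicit false
set_option linter.unusedSimpArgs false
set_option linter.unusedVariables false
set_option linter.unusedSectionVars false

namespace Cfsg.Agent.Lib.Helper7

open Cfsg.Lie Cfsg.Lie.ChevalleyDatum

/-- the image of a generator of the Steinberg cover in the abelianization -/
noncomputable def scAb (D : ChevalleyDatum) (K : Type*) [Field K] (r : ℕ) (t : K) :
    Abelianization (D.SteinbergCover K) := Abelianization.of (D.scGen K r t)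

section
variable {D : ChevalleyDatum} {K : Type*} [Field K]

theorem scAb_add {r : ℕ} (hr : r < D.nroots) (t₁ t₂ : K) :
    scAb D K r t₁ * scAb D K r t₂ = scAb D K r (t₁ + t₂) := by
  have h : PresentedGroup.mk (D.steinbergRelsAB K) (D.stX r t₁ * D.stX r t₂ * (D.stX r (t₁ + t₂))⁻¹) = 1 :=
    PresentedGroup.one_of_mem (Or.inl ⟨r, t₁, t₂, hr, rfl⟩)
  rw [map_mul, map_mul, map_inv, mul_inv_eq_one] at h
  unfold scAb scGen
  rw [← map_mul, h]

theorem scAb_word {r s : ℕ} (hr : r < D.nroots) (hs : s < D.nroots) (h1 : s ≠ r) (h2 : s ≠ D.neg r) (t u : K) :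
    ((D.commWord K r s t u).map fun p => scAb D K p.1 p.2).prod = 1 := by
  have h : PresentedGroup.mk (D.steinbergRelsAB K) ((D.stX s u)⁻¹ * (D.stX r t)⁻¹ * D.stX s u * D.stX r t *
      (D.stWord (D.commWord K r s t u))⁻¹) = 1 :=
    PresentedGroup.one_of_mem (Or.inr ⟨r, s, t, u, hr, hs, h1, h2, rfl⟩)
  set φ : FreeGroup (Fin D.nroots × K) →* Abelianization (D.SteinbergCover K) :=
    (Abelianization.of).comp (PresentedGroup.mk (D.steinbergRelsAB K)) with hφ
  have h3 : φ ((D.stX s u)⁻¹ * (D.stX r t)⁻¹ * D.stX s u * D.stX r t *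
      (D.stWord (D.commWord K r s t u))⁻¹) = 1 := by
    rw [hφ, MonoidHom.comp_apply, h, map_one]
  rw [map_mul, map_mul, map_mul, map_mul, map_inv, map_inv, map_inv] at h3
  have h4 : (φ (D.stX s u))⁻¹ * (φ (D.stX r t))⁻¹ * φ (D.stX s u) * φ (D.stX r t) = 1 := by
    rw [mul_comm (φ (D.stX s u))⁻¹, mul_assoc (φ (D.stX r t))⁻¹, inv_mul_cancel, mul_one, inv_mul_cancel]
  rw [h4, one_mul, inv_eq_one] at h3
  unfold stWord at h3
  rw [map_list_prod, List.map_map] at h3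
  exact h3

theorem scAb_kill1 {r s γ : ℕ} {c : ℤ} (hr : r < D.nroots) (hs : s < D.nroots) (h1 : s ≠ r) (h2 : s ≠ D.neg r)
    (hT : D.commTerms r s = [(γ, c, 1, 1)]) (hc : c = 1 ∨ c = -1) (v : K) : scAb D K γ v = 1 := by
  have h := scAb_word (K := K) hr hs h1 h2 (-(c : K) * v) 1
  unfold commWord at h
  rw [hT] at h
  simp only [List.map_cons, List.map_nil, List.prod_cons, List.prod_nil, mul_one] at h
  have e : (c : K) * (-(-(c : K) * v)) ^ 1 * 1 ^ 1 = v := by
    rcases hc with rfl | rfl <;> simp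
  rwa [e] at h

theorem scAb_kill2 {r s γ1 γ2 : ℕ} {c1 c2 : ℤ} {rest : List (ℕ × ℤ × ℕ × ℕ)}
    (hr : r < D.nroots) (hs : s < D.nroots) (h1 : s ≠ r) (h2 : s ≠ D.neg r)
    (hT : D.commTerms r s = (γ1, c1, 1, 1) :: (γ2, c2, 1, 2) :: rest) (hc1 : c1 = 1 ∨ c1 = -1)
    (hc2 : c2 = 1 ∨ c2 = -1) (hrest : ∀ c ∈ rest, ∀ v : K, scAb D K c.1 v = 1) (hγ2 : γ2 < D.nroots)
    (hl : ∃ x : K, x ≠ 0 ∧ x ≠ 1) : (∀ v : K, scAb D K γ1 v = 1) ∧ (∀ v : K, scAb D K γ2 v = 1) := by
  obtain ⟨l, hl0, hl1⟩ := hl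
  have E : ∀ t u : K, scAb D K γ1 ((c1 : K) * (-t) * u) * scAb D K γ2 ((c2 : K) * (-t) * u ^ 2) = 1 := by
    intro t u
    have h := scAb_word (K := K) hr hs h1 h2 t u
    unfold commWord at h
    rw [hT] at h
    simp only [List.map_cons, List.prod_cons, pow_one] at h
    have h3 : ((rest.map fun c => (c.1, (c.2.1 : K) * (-t) ^ c.2.2.1 * u ^ c.2.2.2)).map
        fun p => scAb D K p.1 p.2).prod = 1 := by
      apply List.prod_eq_one
      intro x hx
      rw [List.map_map, List.mem_map] at hx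
      obtain ⟨c, hc, rfl⟩ := hx
      exact hrest c hc _
    rw [h3, mul_one] at h
    exact h
  have k2 : ∀ v : K, scAb D K γ2 v = 1 := by
    intro v
    have hd : l ^ 2 - l ≠ 0 := by
      have : l ^ 2 - l = l * (l - 1) := by ring
      rw [this]
      exact mul_ne_zero hl0 (sub_ne_zero.2 hl1)
    set t : K := -(c2 : K) * v / (l ^ 2 - l) with ht
    have e1 := E t l
    have e2 := E (l * t) 1
    have e3 : (c1 : K) * (-(l * t)) * 1 = (c1 : K) * (-t) * l := by ring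
    rw [e3] at e2
    have e4 : scAb D K γ2 ((c2 : K) * (-t) * l ^ 2) = scAb D K γ2 ((c2 : K) * (-(l * t)) * 1 ^ 2) :=
      mul_left_cancel (e1.trans e2.symm)
    have e5 : (c2 : K) * (-t) * l ^ 2 = v + (c2 : K) * (-(l * t)) * 1 ^ 2 := by
      have hcc : (c2 : K) * (c2 : K) = 1 := by rcases hc2 with rfl | rfl <;> simp
      have htd : t * (l ^ 2 - l) = -(c2 : K) * v := by rw [ht]; field_simp
      linear_combination (-(c2 : K)) * htd + v * hcc
    rw [e5, ← scAb_add hγ2] at e4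
    exact mul_eq_right.1 e4
  refine ⟨fun v => ?_, k2⟩
  have e1 := E (-(c1 : K) * v) 1
  rw [k2, mul_one] at e1
  have e : (c1 : K) * (-(-(c1 : K) * v)) * 1 = v := by
    rcases hc1 with rfl | rfl <;> simp
  rwa [e] at e1

theorem sc_perfect_of_kill (h : ∀ r < D.nroots, ∀ v : K, scAb D K r v = 1) :
    commutator (D.SteinbergCover K) = ⊤ := by
  rw [eq_top_iff, ← PresentedGroup.closure_range_of, Subgroup.closure_le]
  rintro _ ⟨⟨⟨r, hr⟩, t⟩, rfl⟩
  have h2 : D.scGen K r t ∈ commutator (D.SteinbergCover K) := (QuotientGroup.eq_one_iff _).1 (h r hr t)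
  have h3 : D.scGen K r t = PresentedGroup.of (⟨r, hr⟩, t) := by
    unfold scGen stX
    rw [dif_pos hr]
    rfl
  rwa [h3] at h2

end

theorem Sys4.sc_kill_oneTerm {D : ChevalleyDatum} (S : Sys4 D) {K : Type*} [Field K] {x y p : ℕ}
    (h : oneTerm S.X x y p 1 = true) (v : K) : scAb D K p v = 1 := by
  simp only [oneTerm, Bool.and_eq_true, Bool.or_eq_true, Nat.blt_eq, Bool.not_eq_true', nbeq_false_iff,
    decide_eq_true_eq] at h
  obtain ⟨⟨⟨⟨hx, hy⟩, h1⟩, h2⟩, h3⟩ := h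
  rw [← S.hn] at hx hy h2
  rw [← S.neg_eq hx] at h2
  rcases h3 with h3 | h3
  · exact scAb_kill1 hx hy h1 h2 (by rw [S.commTerms_eq']; exact h3) (Or.inl rfl) v
  · exact scAb_kill1 hx hy h1 h2 (by rw [S.commTerms_eq']; exact h3) (Or.inr rfl) v

theorem Sys4.sc_perfect {D : ChevalleyDatum} (S : Sys4 D) {K : Type*} [Field K] (xs ys : List ℕ)
    (h : allLt S.X.n (fun p => oneTerm S.X (xs.getD p 0) (ys.getD p 0) p 1) = true) :
    commutator (D.SteinbergCover K) = ⊤ := by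
  apply sc_perfect_of_kill
  intro r hr v
  exact S.sc_kill_oneTerm (allLt_sound h r (S.hn ▸ hr)) v

end Cfsg.Agent.Lib.Helper7
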