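import Mathlib

set_option autoImplicit false
set_option linter.unusedSimpArgs false
set_option linter.unusedVariables false
set_option linter.unusedSectionVars false

namespace Cfsg.Agent.Lib.Helper7

/-- `n(t) = x(t) y(-t⁻¹) x(t)` -/
def r1n {G : Type*} [Group G] {F : Type*} [Field F] (x y : F → G) (t : F) : G := x t * y (-t⁻¹) * x t

/-- `h(t) = n(t) n(-1)` -/
def r1h {G : Type*} [Group G] {F : Type*} [Field F] (x y : F → G) (t : F) : G := r1n x y t * r1n x y (-1)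

/-- rank one data -/
structure R1Data (G : Type*) [Group G] (F : Type*) [Field F] where
  x : F → G
  y : F → G
  add_x : ∀ a b, x a * x b = x (a + b)
  n_conj : ∀ b, r1n x y 1 * x b * (r1n x y 1)⁻¹ = y (-b)
  h_mul : ∀ c d, c ≠ 0 → d ≠ 0 → r1h x y c * r1h x y d = r1h x y (c * d)
  h_conj : ∀ c t, c ≠ 0 → r1h x y c * x t * (r1h x y c)⁻¹ = x (c ^ 2 * t)

namespace R1Data

variable {G : Type*} [Group G] {F : Type*} [Field F] (d : R1Data G F)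

def n (t : F) : G := r1n d.x d.y t
def h (t : F) : G := r1h d.x d.y t
def w : G := d.n 1

theorem n_def (t : F) : d.n t = d.x t * d.y (-t⁻¹) * d.x t := rfl
theorem h_def (t : F) : d.h t = d.n t * d.n (-1) := rfl

theorem x_zero : d.x 0 = 1 := by
  have := d.add_x 0 0
  rw [add_zero] at this
  exact mul_eq_left.1 this

theorem x_inv (a : F) : (d.x a)⁻¹ = d.x (-a) := by
  apply inv_eq_of_mul_eq_one_right
  rw [d.add_x, add_neg_cancel, d.x_zero]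

theorem y_eq (b : F) : d.y b = d.w * d.x (-b) * d.w⁻¹ := by
  have := d.n_conj (-b)
  rw [neg_neg] at this
  exact this.symm

theorem y_inv (a : F) : (d.y a)⁻¹ = d.y (-a) := by
  rw [d.y_eq, d.y_eq, neg_neg, ← d.x_inv]; group

theorem n_inv (t : F) : (d.n t)⁻¹ = d.n (-t) := by
  rw [d.n_def, d.n_def, mul_inv_rev, mul_inv_rev, d.x_inv, d.y_inv, neg_neg, inv_neg, neg_neg, mul_assoc]

theorem h_one : d.h 1 = 1 := by
  rw [d.h_def, ← d.n_inv, mul_inv_cancel]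

theorem n_eq (t : F) : d.n t = d.h t * d.w := by
  rw [d.h_def, ← d.n_inv]
  show _ = d.n t * (d.n 1)⁻¹ * d.n 1
  group

theorem hmul {c e : F} (hc : c ≠ 0) (he : e ≠ 0) : d.h c * d.h e = d.h (c * e) := d.h_mul c e hc he

theorem h_inv {c : F} (hc : c ≠ 0) : (d.h c)⁻¹ = d.h c⁻¹ := by
  apply inv_eq_of_mul_eq_one_right
  rw [d.hmul hc (inv_ne_zero hc), mul_inv_cancel₀ hc, d.h_one]

theorem w_inv : d.w⁻¹ = d.h (-1) * d.w := by
  rw [← d.n_eq]; exact d.n_inv 1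

theorem w_sq : d.w * d.w = d.h (-1) := by
  have h1 : d.h (-1) * d.h (-1) = 1 := by
    rw [d.hmul (by simp) (by simp)]; simp [d.h_one]
  have h2 : d.h (-1) = d.w⁻¹ * d.w⁻¹ := by
    rw [d.h_def]
    show d.n (-1) * d.n (-1) = (d.n 1)⁻¹ * (d.n 1)⁻¹
    rw [d.n_inv]
  have h3 : d.h (-1) = (d.h (-1))⁻¹ := eq_inv_of_mul_eq_one_left h1
  rw [h3, h2, mul_inv_rev, inv_inv]

theorem w_h {c : F} (hc : c ≠ 0) : d.w * d.h c = d.h c⁻¹ * d.w := by
  have hc' : -c ≠ 0 := neg_ne_zero.2 hc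
  have h1 : d.n (-c) * d.n c = 1 := by rw [← d.n_inv, inv_mul_cancel]
  rw [d.n_eq, d.n_eq c] at h1
  have h2 : d.w * d.h c = (d.h (-c))⁻¹ * d.w⁻¹ := by
    have : d.h (-c) * (d.w * d.h c) * d.w = 1 := by rw [← h1]; group
    have h3 := eq_inv_of_mul_eq_one_left this
    have h4 : d.w * d.h c = (d.h (-c))⁻¹ * (d.h (-c) * (d.w * d.h c)) := by group
    rw [h4, h3]
  rw [h2, d.h_inv hc', d.w_inv, ← mul_assoc, d.hmul (inv_ne_zero hc') (by simp)]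
  congr 2
  rw [inv_neg]; ring

theorem h_x {c : F} (hc : c ≠ 0) (t : F) : d.h c * d.x t = d.x (c ^ 2 * t) * d.h c := by
  rw [← d.h_conj c t hc]
  show _ = d.h c * d.x t * (d.h c)⁻¹ * d.h c
  group

theorem x_h {c : F} (hc : c ≠ 0) (t : F) : d.x t * d.h c = d.h c * d.x ((c ^ 2)⁻¹ * t) := by
  rw [d.h_x hc]
  congr 2
  field_simp

theorem key {b : F} (hb : b ≠ 0) : d.w * d.x b * d.w = d.x (-b⁻¹) * d.h (-b⁻¹) * d.w * d.x (-b⁻¹) := by
  have hb' : b⁻¹ ≠ 0 := inv_ne_zero hb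
  have h1 : d.w * d.x b * d.w = d.y (-b) * d.h (-1) := by
    rw [d.y_eq, neg_neg, ← d.w_sq]; group
  have h2 : d.y (-b) = d.x (-b⁻¹) * d.n b⁻¹ * d.x (-b⁻¹) := by
    rw [d.n_def, inv_inv, ← d.x_inv]; group
  have h3 : d.x (-b⁻¹) * d.h (-1) = d.h (-1) * d.x (-b⁻¹) := by
    rw [d.x_h (by simp)]; congr 2; simp
  have h4 : d.n b⁻¹ * d.h (-1) = d.h (-b⁻¹) * d.w := by
    rw [d.n_eq, mul_assoc, d.w_h (by simp), ← mul_assoc, d.hmul hb' (by simp)]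
    congr 2
    rw [inv_neg, inv_one]; ring
  rw [h1, h2, mul_assoc, h3, ← mul_assoc, mul_assoc (d.x (-b⁻¹)) (d.n b⁻¹), h4]
  group

/-- the normal form -/
def NF (g : G) : Prop :=
  (∃ a c : F, c ≠ 0 ∧ g = d.x a * d.h c) ∨ (∃ a c b : F, c ≠ 0 ∧ g = d.x a * d.h c * d.w * d.x b)

theorem NF.one : d.NF 1 := Or.inl ⟨0, 1, one_ne_zero, by rw [d.x_zero, d.h_one, one_mul]⟩

variable {d}

theorem NF.mul_x {g : G} (hg : d.NF g) (t : F) : d.NF (g * d.x t) := by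
  rcases hg with ⟨a, c, hc, rfl⟩ | ⟨a, c, b, hc, rfl⟩
  · exact Or.inl ⟨a + c ^ 2 * t, c, hc, by rw [mul_assoc, d.h_x hc, ← mul_assoc, d.add_x]⟩
  · exact Or.inr ⟨a, c, b + t, hc, by rw [mul_assoc, d.add_x]⟩

theorem NF.mul_h {g : G} (hg : d.NF g) {e : F} (he : e ≠ 0) : d.NF (g * d.h e) := by
  rcases hg with ⟨a, c, hc, rfl⟩ | ⟨a, c, b, hc, rfl⟩
  · exact Or.inl ⟨a, c * e, mul_ne_zero hc he, by rw [mul_assoc, d.hmul hc he]⟩
  · refine Or.inr ⟨a, c * e⁻¹, (e ^ 2)⁻¹ * b, mul_ne_zero hc (inv_ne_zero he), ?_⟩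
    rw [mul_assoc, d.x_h he, ← d.hmul hc (inv_ne_zero he)]
    have : d.x a * d.h c * d.w * (d.h e * d.x ((e ^ 2)⁻¹ * b)) =
        d.x a * d.h c * (d.w * d.h e) * d.x ((e ^ 2)⁻¹ * b) := by group
    rw [this, d.w_h he]; group

theorem NF.mul_w {g : G} (hg : d.NF g) : d.NF (g * d.w) := by
  rcases hg with ⟨a, c, hc, rfl⟩ | ⟨a, c, b, hc, rfl⟩
  · exact Or.inr ⟨a, c, 0, hc, by rw [d.x_zero, mul_one]⟩
  · by_cases hb : b = 0
    · subst hb
      refine Or.inl ⟨a, c * (-1), mul_ne_zero hc (by simp), ?_⟩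
      rw [d.x_zero, mul_one, mul_assoc, d.w_sq, mul_assoc, d.hmul hc (by simp)]
    · have hb' : -b⁻¹ ≠ 0 := neg_ne_zero.2 (inv_ne_zero hb)
      refine Or.inr ⟨a + c ^ 2 * (-b⁻¹), c * (-b⁻¹), -b⁻¹, mul_ne_zero hc hb', ?_⟩
      have e1 : d.x a * d.h c * d.w * d.x b * d.w = d.x a * d.h c * (d.w * d.x b * d.w) := by group
      rw [e1, d.key hb, ← d.add_x, ← d.hmul hc hb']
      have e2 : d.x a * d.h c * (d.x (-b⁻¹) * d.h (-b⁻¹) * d.w * d.x (-b⁻¹)) =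
          d.x a * (d.h c * d.x (-b⁻¹)) * d.h (-b⁻¹) * d.w * d.x (-b⁻¹) := by group
      rw [e2, d.h_x hc]; group

theorem NF.mul_w_inv {g : G} (hg : d.NF g) : d.NF (g * d.w⁻¹) := by
  have : d.w⁻¹ = d.w * d.h (-1) := by
    rw [d.w_h (by simp), d.w_inv]; congr 2; simp
  rw [this, ← mul_assoc]
  exact hg.mul_w.mul_h (by simp)

theorem NF.mul_y {g : G} (hg : d.NF g) (t : F) : d.NF (g * d.y t) := by
  rw [d.y_eq, ← mul_assoc, ← mul_assoc]
  exact (hg.mul_w.mul_x _).mul_w_inv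

variable (d)

theorem nf_of_mem {g : G} (hg : g ∈ Subgroup.closure (Set.range d.x ∪ Set.range d.y)) : d.NF g := by
  induction hg using Subgroup.closure_induction_right with
  | one => exact NF.one d
  | mul_right g s _ hs ih =>
    rcases hs with ⟨t, rfl⟩ | ⟨t, rfl⟩
    · exact ih.mul_x t
    · exact ih.mul_y t
  | mul_inv_cancel g s _ hs ih =>
    rcases hs with ⟨t, rfl⟩ | ⟨t, rfl⟩
    · rw [d.x_inv]; exact ih.mul_x _
    · rw [d.y_inv]; exact ih.mul_y _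

/-- the product of two rank one data -/
def prod {G' : Type*} [Group G'] (d' : R1Data G' F) : R1Data (G × G') F where
  x t := (d.x t, d'.x t)
  y t := (d.y t, d'.y t)
  add_x a b := Prod.ext (d.add_x a b) (d'.add_x a b)
  n_conj b := Prod.ext (d.n_conj b) (d'.n_conj b)
  h_mul c e hc he := Prod.ext (d.h_mul c e hc he) (d'.h_mul c e hc he)
  h_conj c t hc := Prod.ext (d.h_conj c t hc) (d'.h_conj c t hc)

end R1Data

theorem hom_of_graph {A Γ : Type*} [Group A] [Group Γ] (Δ : Subgroup (A × Γ)) (h1 : ∀ a, ∃ γ, (a, γ) ∈ Δ)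
    (h2 : ∀ γ, ((1 : A), γ) ∈ Δ → γ = 1) : ∃ φ : A →* Γ, ∀ a γ, (a, γ) ∈ Δ → φ a = γ := by
  choose f hf using h1
  have uniq : ∀ a γ γ', (a, γ) ∈ Δ → (a, γ') ∈ Δ → γ = γ' := by
    intro a γ γ' h h'
    have h3 : ((a, γ') : A × Γ)⁻¹ * (a, γ) ∈ Δ := mul_mem (inv_mem h') h
    have h4 : ((a, γ') : A × Γ)⁻¹ * (a, γ) = (1, γ'⁻¹ * γ) := by
      ext <;> simp
    rw [h4] at h3
    have := h2 _ h3
    exact (inv_mul_eq_one.1 this).symm
  refine ⟨MonoidHom.mk' f fun a b => uniq _ _ _ (hf (a * b)) (mul_mem (hf a) (hf b)), fun a γ h => ?_⟩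
  exact uniq _ _ _ (hf a) h

/-- a homomorphism between groups with rank one data -/
theorem R1Data.exists_hom {A Γ : Type*} [Group A] [Group Γ] {F : Type*} [Field F] (dA : R1Data A F) (dΓ : R1Data Γ F)
    (hgen : Subgroup.closure (Set.range dA.x ∪ Set.range dA.y) = ⊤)
    (hB : ∀ a c : F, c ≠ 0 → dA.x a * dA.h c = 1 → a = 0 ∧ c = 1)
    (hW : ∀ a c b : F, c ≠ 0 → dA.x a * dA.h c * dA.w * dA.x b ≠ 1) :
    ∃ φ : A →* Γ, (∀ t, φ (dA.x t) = dΓ.x t) ∧ (∀ t, φ (dA.y t) = dΓ.y t) := by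
  set P := dA.prod dΓ with hP
  set Δ := Subgroup.closure (Set.range P.x ∪ Set.range P.y) with hΔ
  have h1 : ∀ a, ∃ γ, (a, γ) ∈ Δ := by
    intro a
    have ha : a ∈ Subgroup.closure (Set.range dA.x ∪ Set.range dA.y) := by rw [hgen]; trivial
    induction ha using Subgroup.closure_induction with
    | mem s hs =>
      rcases hs with ⟨t, rfl⟩ | ⟨t, rfl⟩
      · exact ⟨dΓ.x t, Subgroup.subset_closure (Or.inl ⟨t, rfl⟩)⟩
      · exact ⟨dΓ.y t, Subgroup.subset_closure (Or.inr ⟨t, rfl⟩)⟩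
    | one => exact ⟨1, one_mem _⟩
    | mul a b _ _ iha ihb =>
      obtain ⟨γ, hγ⟩ := iha
      obtain ⟨γ', hγ'⟩ := ihb
      exact ⟨γ * γ', mul_mem hγ hγ'⟩
    | inv a _ iha =>
      obtain ⟨γ, hγ⟩ := iha
      exact ⟨γ⁻¹, inv_mem hγ⟩
  have h2 : ∀ γ, ((1 : A), γ) ∈ Δ → γ = 1 := by
    intro γ hγ
    rcases P.nf_of_mem hγ with ⟨a, c, hc, e⟩ | ⟨a, c, b, hc, e⟩
    · have e1 : (1 : A) = dA.x a * dA.h c := congrArg Prod.fst e
      have e2 : γ = dΓ.x a * dΓ.h c := congrArg Prod.snd e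
      obtain ⟨rfl, rfl⟩ := hB a c hc e1.symm
      rw [e2, dΓ.x_zero, dΓ.h_one, one_mul]
    · have e1 : (1 : A) = dA.x a * dA.h c * dA.w * dA.x b := congrArg Prod.fst e
      exact absurd e1.symm (hW a c b hc)
  obtain ⟨φ, hφ⟩ := hom_of_graph Δ h1 h2
  exact ⟨φ, fun t => hφ _ _ (Subgroup.subset_closure (Or.inl ⟨t, rfl⟩)),
    fun t => hφ _ _ (Subgroup.subset_closure (Or.inr ⟨t, rfl⟩))⟩

end Cfsg.Agent.Lib.Helper7
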