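import Cfsg.Agent.Lib.Helper7.SLH1

set_option autoImplicit false
set_option linter.unusedSimpArgs false
set_option linter.unusedVariables false
set_option linter.unusedSectionVars false

namespace Cfsg.Agent.Lib.Helper7

open Matrix

variable {F : Type*} [Field F]

/-- upper unitriangular -/
def slU (t : F) : SpecialLinearGroup (Fin 2) F := ⟨!![1, t; 0, 1], by simp [det_fin_two]⟩
/-- lower unitriangular -/
def slL (t : F) : SpecialLinearGroup (Fin 2) F := ⟨!![1, 0; t, 1], by simp [det_fin_two]⟩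

theorem coe_slU (t : F) : (slU t : Matrix (Fin 2) (Fin 2) F) = !![1, t; 0, 1] := rfl
theorem coe_slL (t : F) : (slL t : Matrix (Fin 2) (Fin 2) F) = !![1, 0; t, 1] := rfl

theorem coe_slN {t : F} (ht : t ≠ 0) :
    ((r1n slU slL t : SpecialLinearGroup (Fin 2) F) : Matrix (Fin 2) (Fin 2) F) = !![0, t; -t⁻¹, 0] := by
  show (slU t : Matrix (Fin 2) (Fin 2) F) * (slL (-t⁻¹) : Matrix (Fin 2) (Fin 2) F) *
    (slU t : Matrix (Fin 2) (Fin 2) F) = _
  rw [coe_slU, coe_slL, mul_fin_two, mul_fin_two]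
  simp [ht]

theorem coe_slH {t : F} (ht : t ≠ 0) :
    ((r1h slU slL t : SpecialLinearGroup (Fin 2) F) : Matrix (Fin 2) (Fin 2) F) = !![t, 0; 0, t⁻¹] := by
  show ((r1n slU slL t : SpecialLinearGroup (Fin 2) F) : Matrix (Fin 2) (Fin 2) F) *
    ((r1n slU slL (-1) : SpecialLinearGroup (Fin 2) F) : Matrix (Fin 2) (Fin 2) F) = _
  rw [coe_slN ht, coe_slN (by simp), mul_fin_two]
  simp

/-- the rank one datum of `SL₂` -/
def slData (F : Type*) [Field F] : R1Data (SpecialLinearGroup (Fin 2) F) F where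
  x := slU
  y := slL
  add_x a b := by
    apply Subtype.ext
    show (slU a : Matrix (Fin 2) (Fin 2) F) * (slU b : Matrix (Fin 2) (Fin 2) F) = _
    rw [coe_slU, coe_slU, coe_slU, mul_fin_two]
    simp [add_comm]
  n_conj b := by
    rw [mul_inv_eq_iff_eq_mul]
    apply Subtype.ext
    show ((r1n slU slL 1 : SpecialLinearGroup (Fin 2) F) : Matrix (Fin 2) (Fin 2) F) * (slU b : Matrix (Fin 2) (Fin 2) F) =
      (slL (-b) : Matrix (Fin 2) (Fin 2) F) * ((r1n slU slL 1 : SpecialLinearGroup (Fin 2) F) : Matrix (Fin 2) (Fin 2) F)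
    rw [coe_slN one_ne_zero, coe_slU, coe_slL, mul_fin_two, mul_fin_two]
    simp
  h_mul c e hc he := by
    apply Subtype.ext
    show ((r1h slU slL c : SpecialLinearGroup (Fin 2) F) : Matrix (Fin 2) (Fin 2) F) *
      ((r1h slU slL e : SpecialLinearGroup (Fin 2) F) : Matrix (Fin 2) (Fin 2) F) = _
    rw [coe_slH hc, coe_slH he, coe_slH (mul_ne_zero hc he), mul_fin_two]
    simp [mul_comm]
  h_conj c t hc := by
    rw [mul_inv_eq_iff_eq_mul]
    apply Subtype.ext
    show ((r1h slU slL c : SpecialLinearGroup (Fin 2) F) : Matrix (Fin 2) (Fin 2) F) * (slU t : Matrix (Fin 2) (Fin 2) F) =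
      (slU (c ^ 2 * t) : Matrix (Fin 2) (Fin 2) F) * ((r1h slU slL c : SpecialLinearGroup (Fin 2) F) : Matrix (Fin 2) (Fin 2) F)
    rw [coe_slH hc, coe_slU, coe_slU, mul_fin_two, mul_fin_two]
    simp only [mul_one, mul_zero, add_zero, zero_add, one_mul, zero_mul]
    congr 2
    field_simp

theorem sl_mem_of_ne (g : SpecialLinearGroup (Fin 2) F) (hc : g.1 1 0 ≠ 0) :
    g ∈ Subgroup.closure (Set.range (slU (F := F)) ∪ Set.range (slL (F := F))) := by
  have hdet : g.1 0 0 * g.1 1 1 - g.1 0 1 * g.1 1 0 = 1 := by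
    have := g.2
    rwa [det_fin_two] at this
  have e : g = slU ((g.1 0 0 - 1) / g.1 1 0) * slL (g.1 1 0) * slU ((g.1 1 1 - 1) / g.1 1 0) := by
    apply Subtype.ext
    show g.1 = (slU ((g.1 0 0 - 1) / g.1 1 0) : Matrix (Fin 2) (Fin 2) F) * (slL (g.1 1 0) : Matrix (Fin 2) (Fin 2) F) *
      (slU ((g.1 1 1 - 1) / g.1 1 0) : Matrix (Fin 2) (Fin 2) F)
    rw [coe_slU, coe_slU, coe_slL, mul_fin_two, mul_fin_two]
    ext i j
    fin_cases i <;> fin_cases j
    · simp; field_simp; ring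
    · simp; field_simp; linear_combination -hdet
    · simp
    · simp; field_simp; ring
  rw [e]
  exact mul_mem (mul_mem (Subgroup.subset_closure (Or.inl ⟨_, rfl⟩)) (Subgroup.subset_closure (Or.inr ⟨_, rfl⟩)))
    (Subgroup.subset_closure (Or.inl ⟨_, rfl⟩))

theorem sl_gen : Subgroup.closure (Set.range (slU (F := F)) ∪ Set.range (slL (F := F))) = ⊤ := by
  rw [eq_top_iff]
  intro g _
  by_cases hc : g.1 1 0 = 0
  · have hdet : g.1 0 0 * g.1 1 1 - g.1 0 1 * g.1 1 0 = 1 := by
      have := g.2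
      rwa [det_fin_two] at this
    have ha : g.1 0 0 ≠ 0 := by
      intro h
      rw [h, hc] at hdet
      simp at hdet
    have h1 : slL 1 * g ∈ Subgroup.closure (Set.range (slU (F := F)) ∪ Set.range (slL (F := F))) := by
      apply sl_mem_of_ne
      show ((slL (1 : F) : Matrix (Fin 2) (Fin 2) F) * g.1) 1 0 ≠ 0
      rw [coe_slL, mul_apply, Fin.sum_univ_two]
      simp [hc, ha]
    have h2 : g = (slL 1)⁻¹ * (slL 1 * g) := by group
    rw [h2]
    exact mul_mem (inv_mem (Subgroup.subset_closure (Or.inr ⟨_, rfl⟩))) h1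
  · exact sl_mem_of_ne g hc

theorem sl_hB (a c : F) (hc : c ≠ 0) (h : (slData F).x a * (slData F).h c = 1) : a = 0 ∧ c = 1 := by
  have h1 : (slU a : Matrix (Fin 2) (Fin 2) F) *
      ((r1h slU slL c : SpecialLinearGroup (Fin 2) F) : Matrix (Fin 2) (Fin 2) F) = 1 := congrArg Subtype.val h
  rw [coe_slU, coe_slH hc, mul_fin_two] at h1
  have e00 := congrFun (congrFun h1 0) 0
  have e01 := congrFun (congrFun h1 0) 1
  simp at e00 e01
  exact ⟨by tauto, e00⟩

theorem sl_hW (a c b : F) (hc : c ≠ 0) : (slData F).x a * (slData F).h c * (slData F).w * (slData F).x b ≠ 1 := by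
  intro h
  have h1 : (slU a : Matrix (Fin 2) (Fin 2) F) *
      ((r1h slU slL c : SpecialLinearGroup (Fin 2) F) : Matrix (Fin 2) (Fin 2) F) *
      ((r1n slU slL 1 : SpecialLinearGroup (Fin 2) F) : Matrix (Fin 2) (Fin 2) F) *
      (slU b : Matrix (Fin 2) (Fin 2) F) = 1 := congrArg Subtype.val h
  rw [coe_slU, coe_slH hc, coe_slN one_ne_zero, coe_slU, mul_fin_two, mul_fin_two, mul_fin_two] at h1
  have e10 := congrFun (congrFun h1 1) 0
  simp at e10
  exact hc e10

/-- the sign twist of `SL₂` -/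
def slTw (e : F) (he : e * e = 1) : SpecialLinearGroup (Fin 2) F →* SpecialLinearGroup (Fin 2) F where
  toFun g := ⟨!![g.1 0 0, e * g.1 0 1; e * g.1 1 0, g.1 1 1], by
    have := g.2
    rw [det_fin_two] at this
    rw [det_fin_two]
    simp only [of_apply, cons_val', cons_val_zero, cons_val_one, cons_val_fin_one]
    linear_combination this - g.1 0 1 * g.1 1 0 * he⟩
  map_one' := by
    apply Subtype.ext
    ext i j
    fin_cases i <;> fin_cases j <;> simp
  map_mul' g g' := by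
    apply Subtype.ext
    show !![(g.1 * g'.1) 0 0, e * (g.1 * g'.1) 0 1; e * (g.1 * g'.1) 1 0, (g.1 * g'.1) 1 1] =
      !![g.1 0 0, e * g.1 0 1; e * g.1 1 0, g.1 1 1] * !![g'.1 0 0, e * g'.1 0 1; e * g'.1 1 0, g'.1 1 1]
    rw [mul_fin_two]
    simp only [mul_apply, Fin.sum_univ_two]
    ext i j
    fin_cases i <;> fin_cases j
    · simp; linear_combination (-(g.1 0 1 * g'.1 1 0)) * he
    · simp; ring
    · simp; ring
    · simp; linear_combination (-(g.1 1 0 * g'.1 0 1)) * he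

theorem slTw_U (e : F) (he : e * e = 1) (t : F) : slTw e he (slU t) = slU (e * t) := by
  apply Subtype.ext
  show !![(slU t).1 0 0, e * (slU t).1 0 1; e * (slU t).1 1 0, (slU t).1 1 1] = !![1, e * t; 0, 1]
  simp [slU]

theorem slTw_L (e : F) (he : e * e = 1) (t : F) : slTw e he (slL t) = slL (e * t) := by
  apply Subtype.ext
  show !![(slL t).1 0 0, e * (slL t).1 0 1; e * (slL t).1 1 0, (slL t).1 1 1] = !![1, 0; e * t, 1]
  simp [slL]

end Cfsg.Agent.Lib.Helper7
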