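import Cfsg.Agent.Lib.Helper7.SLH2
import Cfsg.Agent.Lib.Helper7.Aut10

set_option autoImplicit false
set_option linter.unusedSimpArgs false
set_option linter.unusedVariables false
set_option linter.unusedSectionVars false

namespace Cfsg.Agent.Lib.Helper7

open Cfsg.Lie Cfsg.Lie.ChevalleyDatum Matrix

namespace Sys5

variable {D : ChevalleyDatum} (S : Sys5 D) (F : Type*) [Field F]

theorem r1n_eq (r : ℕ) (t : F) :
    r1n (fun t : F => S.xg r t) (fun t : F => S.xg (D.neg r) t) t = S.ng r t := (Sys.ng_def _ r t).symm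

theorem r1h_eq (r : ℕ) (t : F) :
    r1h (fun t : F => S.xg r t) (fun t : F => S.xg (D.neg r) t) t = S.hg r t := by
  unfold r1h
  rw [S.r1n_eq, S.r1n_eq, ← Sys.hg_def]

/-- the rank one datum of a fundamental root -/
noncomputable def r1 {i : ℕ} (hi : i < D.rank) (hcar : D.cartan i (D.simple i) = 2) : R1Data (GL D.Idx F) F where
  x t := S.xg (D.simple i) t
  y t := S.xg (D.neg (D.simple i)) t
  add_x a b := Sys.xg_add _ _ a b
  n_conj b := by
    rw [S.r1n_eq]
    exact S.ni_conj_simple hi b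
  h_mul c e hc he := by
    rw [S.r1h_eq, S.r1h_eq, S.r1h_eq]
    apply Units.ext
    rw [Units.val_mul, S.coe_hg_simple hi hc, S.coe_hg_simple hi he, S.coe_hg_simple hi (mul_ne_zero hc he), dmat_mul]
    congr 1
    funext s
    rw [mul_zpow]
  h_conj c t hc := by
    rw [S.r1h_eq, S.hgs_conj hi (S.simple_lt hi) hc, hcar]
    congr 2
    exact zpow_ofNat c 2

variable {F}
include S

theorem sl2_exists (hcar : ∀ i < D.rank, D.cartan i (D.simple i) = 2) : ∀ r < D.nroots,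
    ∃ φ : SpecialLinearGroup (Fin 2) F →* GL D.Idx F,
      (∀ t, φ (slU t) = S.xg r t) ∧ (∀ t, φ (slL t) = S.xg (D.neg r) t) := by
  apply S.root_induction
  · intro i hi
    exact (slData F).exists_hom (S.r1 F hi (hcar i hi)) sl_gen sl_hB sl_hW
  · intro i hi r hr ⟨φ, h1, h2⟩
    refine ⟨(MulAut.conj (S.ni F i)).toMonoidHom.comp (φ.comp (slTw (((S.η i r : ℤ) : F)) (S.ηF_mul_self i r))),
      fun t => ?_, fun t => ?_⟩
    · show S.ni F i * φ (slTw _ _ (slU t)) * (S.ni F i)⁻¹ = _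
      rw [slTw_U, h1, S.ng_conj hi hr, ← mul_assoc, S.ηF_mul_self, one_mul]
    · show S.ni F i * φ (slTw _ _ (slL t)) * (S.ni F i)⁻¹ = _
      rw [slTw_L, h2, S.ng_conj hi (S.neg_lt hr), S.η_neg hi hr, S.refl_neg hi hr, ← mul_assoc, S.ηF_mul_self, one_mul]

theorem sl2_hom (hcar : ∀ i < D.rank, D.cartan i (D.simple i) = 2) {r : ℕ} (hr : r < D.nroots) :
    ∃ φ : SpecialLinearGroup (Fin 2) F →* GL D.Idx F,
      φ.range = D.rootSubgroup F r ⊔ D.rootSubgroup F (D.neg r) ∧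
      ∀ (g : SpecialLinearGroup (Fin 2) F) (t : F),
        ((g : Matrix (Fin 2) (Fin 2) F) = !![1, t; 0, 1] → ((φ g : GL D.Idx F) : Matrix D.Idx D.Idx F) = D.x F r t) ∧
        ((g : Matrix (Fin 2) (Fin 2) F) = !![1, 0; t, 1] →
          ((φ g : GL D.Idx F) : Matrix D.Idx D.Idx F) = D.x F (D.neg r) t) := by
  obtain ⟨φ, h1, h2⟩ := S.sl2_exists (F := F) hcar r hr
  refine ⟨φ, ?_, fun g t => ⟨fun h => ?_, fun h => ?_⟩⟩
  · rw [MonoidHom.range_eq_map, ← sl_gen, MonoidHom.map_closure, Set.image_union, Subgroup.closure_union,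
      S.rootSubgroup_eq, S.rootSubgroup_eq]
    congr 2
    · ext g
      constructor
      · rintro ⟨_, ⟨t, rfl⟩, rfl⟩
        exact ⟨t, h1 t⟩
      · rintro ⟨t, rfl⟩
        exact ⟨_, ⟨t, rfl⟩, h1 t⟩
    · ext g
      constructor
      · rintro ⟨_, ⟨t, rfl⟩, rfl⟩
        exact ⟨t, h2 t⟩
      · rintro ⟨t, rfl⟩
        exact ⟨_, ⟨t, rfl⟩, h2 t⟩
  · have : g = slU t := Subtype.ext h
    rw [this, h1]; rfl
  · have : g = slL t := Subtype.ext h
    rw [this, h2]; rfl

end Sys5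

end Cfsg.Agent.Lib.Helper7
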