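import Cfsg.Agent.Lib.Helper7.S2G2
import Cfsg.Agent.Lib.Helper7.S2B2
import Cfsg.Agent.Lib.Helper7.S2D4
import Cfsg.Agent.Lib.Helper7.S2F4
import Cfsg.Agent.Lib.Helper7.S2E6
import Cfsg.Agent.Lib.Helper7.S2E7
import Cfsg.Agent.Lib.Helper7.S2E8

set_option autoImplicit false

namespace Cfsg.Agent.Lib.Helper7

open Cfsg.Lie

theorem exists_sys2 (D : ChevalleyDatum)
    (hD : D ∈ [chevG2, chevB2, chevD4, chevF4, chevE6, chevE7, chevE8]) : Nonempty (Sys2 D) := by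
  simp only [List.mem_cons, List.not_mem_nil, or_false] at hD
  rcases hD with rfl | rfl | rfl | rfl | rfl | rfl | rfl
  · exact ⟨sys2G2⟩
  · exact ⟨sys2B2⟩
  · exact ⟨sys2D4⟩
  · exact ⟨sys2F4⟩
  · exact ⟨sys2E6⟩
  · exact ⟨sys2E7⟩
  · exact ⟨sys2E8⟩

end Cfsg.Agent.Lib.Helper7
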