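import Cfsg.Agent.Lib.Helper7.Ker
import Cfsg.Agent.Lib.Helper7.Sys2All

set_option autoImplicit false

namespace Cfsg.Agent.Lib.Helper7

open Cfsg.Lie

theorem exists_sys3 (D : ChevalleyDatum)
    (hD : D ∈ [chevG2, chevB2, chevD4, chevF4, chevE6, chevE7, chevE8]) : Nonempty (Sys3 D) := by
  obtain ⟨S⟩ := exists_sys2 D hD
  exact ⟨⟨S, noDbl_of_mem D hD⟩⟩

end Cfsg.Agent.Lib.Helper7
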