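import Cfsg.Agent.Lib.Helper7.S4G2
import Cfsg.Agent.Lib.Helper7.S4B2
import Cfsg.Agent.Lib.Helper7.S4D4
import Cfsg.Agent.Lib.Helper7.S4F4
import Cfsg.Agent.Lib.Helper7.S4E6
import Cfsg.Agent.Lib.Helper7.S4E7
import Cfsg.Agent.Lib.Helper7.S4E8

set_option autoImplicit false

namespace Cfsg.Agent.Lib.Helper7

open Cfsg.Lie

theorem exists_sys4 (D : ChevalleyDatum)
    (hD : D ∈ [chevG2, chevB2, chevD4, chevF4, chevE6, chevE7, chevE8]) :
    ∃ S : Sys4 D, S.needA = true → D = chevG2 ∨ D = chevB2 := by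
  simp only [List.mem_cons, List.not_mem_nil, or_false] at hD
  rcases hD with rfl | rfl | rfl | rfl | rfl | rfl | rfl
  · exact ⟨sys4G2, fun _ => Or.inl rfl⟩
  · exact ⟨sys4B2, fun _ => Or.inr rfl⟩
  · exact ⟨sys4D4, fun h => by simp [sys4D4] at h⟩
  · exact ⟨sys4F4, fun h => by simp [sys4F4] at h⟩
  · exact ⟨sys4E6, fun h => by simp [sys4E6] at h⟩
  · exact ⟨sys4E7, fun h => by simp [sys4E7] at h⟩
  · exact ⟨sys4E8, fun h => by simp [sys4E8] at h⟩

end Cfsg.Agent.Lib.Helper7
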